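import Mathlib

/-! Arithmetic for groups whose order divides `175560 = 2^3 * 3 * 5 * 7 * 11 * 19`. -/

set_option autoImplicit false

namespace Cfsg.Agent.OrdJ

/-- the divisors of `21945 = 3 * 5 * 7 * 11 * 19` -/
def dv : List ℕ :=
  [1, 3, 5, 15, 7, 21, 35, 105, 11, 33, 55, 165, 77, 231, 385, 1155,
   19, 57, 95, 285, 133, 399, 665, 1995, 209, 627, 1045, 3135, 1463, 4389, 7315, 21945]

theorem dvd_prime_mul {p a x : ℕ} (hp : p.Prime) (h : x ∣ p * a) : x ∣ a ∨ ∃ y, y ∣ a ∧ x = p * y := by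
  obtain ⟨b, c, hb, hc, rfl⟩ := (Nat.dvd_mul).1 h
  rcases (Nat.dvd_prime hp).1 hb with rfl | rfl
  · left; rwa [one_mul]
  · right; exact ⟨c, hc, rfl⟩

theorem mem_dv {x : ℕ} (h : x ∣ 21945) : x ∈ dv := by
  have h1 : x ∣ 3 * (5 * (7 * (11 * 19))) := by simpa using h
  have base : ∀ y : ℕ, y ∣ 19 → y = 1 ∨ y = 19 := fun y hy => (Nat.dvd_prime (by norm_num)).1 hy
  have s1 : ∀ y : ℕ, y ∣ 11 * 19 → y = 1 ∨ y = 19 ∨ y = 11 ∨ y = 209 := by
    intro y hy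
    rcases dvd_prime_mul (by norm_num) hy with h2 | ⟨z, hz, rfl⟩
    · rcases base y h2 with rfl | rfl <;> simp
    · rcases base z hz with rfl | rfl <;> simp
  have s2 : ∀ y : ℕ, y ∣ 7 * (11 * 19) → y ∈ [1, 19, 11, 209, 7, 133, 77, 1463] := by
    intro y hy
    rcases dvd_prime_mul (by norm_num) hy with h2 | ⟨z, hz, rfl⟩
    · rcases s1 y h2 with rfl | rfl | rfl | rfl <;> simp
    · rcases s1 z hz with rfl | rfl | rfl | rfl <;> simp
  have s3 : ∀ y : ℕ, y ∣ 5 * (7 * (11 * 19)) → y ∈ [1, 19, 11, 209, 7, 133, 77, 1463] ∨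
      ∃ z ∈ [1, 19, 11, 209, 7, 133, 77, 1463], y = 5 * z := by
    intro y hy
    rcases dvd_prime_mul (by norm_num) hy with h2 | ⟨z, hz, rfl⟩
    · exact Or.inl (s2 y h2)
    · exact Or.inr ⟨z, s2 z hz, rfl⟩
  have s4 : ∃ w, w ∣ 5 * (7 * (11 * 19)) ∧ (x = w ∨ x = 3 * w) := by
    rcases dvd_prime_mul (by norm_num) h1 with h2 | ⟨z, hz, rfl⟩
    · exact ⟨x, h2, Or.inl rfl⟩
    · exact ⟨z, hz, Or.inr rfl⟩
  obtain ⟨w, hw, hx⟩ := s4
  have key : ∀ v ∈ [1, 19, 11, 209, 7, 133, 77, 1463],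
      v ∈ dv ∧ 3 * v ∈ dv ∧ 5 * v ∈ dv ∧ 3 * (5 * v) ∈ dv := by decide
  rcases s3 w hw with h3 | ⟨z, hz, rfl⟩
  · rcases hx with rfl | rfl
    · exact (key _ h3).1
    · exact (key _ h3).2.1
  · rcases hx with rfl | rfl
    · exact (key _ hz).2.2.1
    · exact (key _ hz).2.2.2

theorem prime_mem {p : ℕ} (hp : p.Prime) (h : p ∣ 175560) :
    p = 2 ∨ p = 3 ∨ p = 5 ∨ p = 7 ∨ p = 11 ∨ p = 19 := by
  have h1 : p ∣ 2 ^ 3 * (3 * (5 * (7 * (11 * 19)))) := by simpa using h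
  rcases (Nat.Prime.dvd_mul hp).1 h1 with h2 | h2
  · left; exact (Nat.prime_dvd_prime_iff_eq hp Nat.prime_two).1 (hp.dvd_of_dvd_pow h2)
  rcases (Nat.Prime.dvd_mul hp).1 h2 with h2 | h2
  · right; left; exact (Nat.prime_dvd_prime_iff_eq hp (by norm_num)).1 h2
  rcases (Nat.Prime.dvd_mul hp).1 h2 with h2 | h2
  · right; right; left; exact (Nat.prime_dvd_prime_iff_eq hp (by norm_num)).1 h2
  rcases (Nat.Prime.dvd_mul hp).1 h2 with h2 | h2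
  · right; right; right; left; exact (Nat.prime_dvd_prime_iff_eq hp (by norm_num)).1 h2
  rcases (Nat.Prime.dvd_mul hp).1 h2 with h2 | h2
  · right; right; right; right; left; exact (Nat.prime_dvd_prime_iff_eq hp (by norm_num)).1 h2
  · right; right; right; right; right; exact (Nat.prime_dvd_prime_iff_eq hp (by norm_num)).1 h2

theorem not_sq_dvd {n p : ℕ} (hn : n ∣ 175560) (hp : p.Prime) (h2 : p ≠ 2) : ¬ p ^ 2 ∣ n := by
  intro h
  have h1 : p ^ 2 ∣ 175560 := h.trans hn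
  rcases prime_mem hp ((dvd_pow_self p two_ne_zero).trans h1) with rfl | rfl | rfl | rfl | rfl | rfl
  · exact h2 rfl
  all_goals norm_num at h1

theorem not_sixteen {n : ℕ} (hn : n ∣ 175560) : ¬ 16 ∣ n := by
  intro h
  have := h.trans hn
  norm_num at this

/-- the degrees of the principal `2`-block, Klein four case -/
theorem four_num : ∀ x ∈ dv, ∀ r ∈ dv, ∀ n ∈ dv,
    (x % 4 = 1 → r * (2 * x + 1 + 1) * (2 * x + 1 + 1) = 16 * n * n * ((2 * x + 1) * x) →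
      (2 * x + 1) ∈ dv → (n * r) ∈ dv → (r = 3 ∧ n = 1) ∨ (r = 55 ∧ n = 3)) := by
  decide +kernel

theorem four_num' : ∀ a ∈ dv, ∀ b ∈ dv, ∀ c ∈ dv, 1 + a = b + c → b % 4 = 3 → c % 4 = 3 →
    ∀ r ∈ dv, ∀ n ∈ dv,
      r * (a * b * c + b * c) = r * (a * c + a * b) + 8 * n * n * (a * b * c) →
      (n * r) ∈ dv → (r = 15 ∧ n = 1) ∨ (r = 231 ∧ n = 5) := by
  decide +kernel

theorem dih_num : ∀ x ∈ dv, ∀ r ∈ dv, 8 * (x * (x - 1)) ∣ r * ((x + 1) * (x + 1)) →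
    ∀ a ∈ dv, ∀ b ∈ dv, r * ((x + 1) * (x + 1)) = 8 * (x * (x - 1)) * ((a + b) * (a + b)) →
      (r * a) ∈ dv → (r * b) ∈ dv → x = 7 ∧ r = 21 ∧ a = 1 ∧ b = 1 := by
  decide +kernel

theorem dih_num' : ∀ x ∈ dv, ∀ r ∈ dv, x ≠ 1 → 8 * (x * (x + 1)) ∣ r * ((x - 1) * (x - 1)) →
    ∀ a ∈ dv, ∀ b ∈ dv, r * ((x - 1) * (x - 1)) = 8 * (x * (x + 1)) * ((a + b) * (a + b)) →
      (r * a) ∈ dv → (r * b) ∈ dv → False := by
  decide +kernel

theorem syl_eleven {i : ℕ} (h : i ∣ 285) (h1 : i ≡ 1 [MOD 11]) : i = 1 := by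
  have key : ∀ j < 286, j ∣ 285 → j % 11 = 1 → j = 1 := by decide +kernel
  exact key i (by have := Nat.le_of_dvd (by norm_num) h; omega) h h1

theorem syl_nineteen {i : ℕ} (h : i ∣ 165) (h1 : i ≡ 1 [MOD 19]) : i = 1 := by
  have key : ∀ j < 166, j ∣ 165 → j % 19 = 1 → j = 1 := by decide +kernel
  exact key i (by have := Nat.le_of_dvd (by norm_num) h; omega) h h1

end Cfsg.Agent.OrdJ
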