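import Cfsg.Agent.H60.Gen2
import Cfsg.Agent.H74.Retract
import Cfsg.Agent.H68.SimpleTwo
import Cfsg.Agent.FrobThm.Basic
import Cfsg.Agent.H4.KleinFourSylow
import Cfsg.Agent.OrdJ.Num

/-! Simple groups of order dividing `175560`: general facts. -/

set_option autoImplicit false

namespace Cfsg.Agent.OrdJ

open Subgroup Cfsg.Agent.H60

variable {G : Type*} [Group G] [Finite G]

/-- Burnside: in a simple group an element generating a Sylow subgroup is inverted or so. -/
theorem ratio_ne_one [IsSimpleGroup G] (hG : ¬ IsMulCommutative G) {p : ℕ} [hp : Fact p.Prime]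
    {z : G} (hz : orderOf z = p) (h2 : ¬ p ^ 2 ∣ Nat.card G) : ratio z ≠ 1 := by
  intro h1
  have hle : normalizer (sylZ hz h2 : Set G) ≤ centralizer (sylZ hz h2 : Set G) := by
    change normalizer (zpowers z : Set G) ≤ centralizer (zpowers z : Set G)
    rw [centralizer_zpowers]
    exact Subgroup.relIndex_eq_one.1 h1
  obtain ⟨π, -, -, hreg, hidx, hnd⟩ := Cfsg.Agent.H74.exists_retract (sylZ hz h2) hle
  have hc : Nat.card (sylZ hz h2 : Subgroup G) = p := by
    change Nat.card (zpowers z) = p
    rw [Nat.card_zpowers, hz]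
  rw [hc] at hidx
  have hn : π.ker.Normal := inferInstance
  rcases hn.eq_bot_or_eq_top with h3 | h3
  · rw [h3, index_bot] at hidx
    have : IsCyclic G := isCyclic_of_prime_card hidx
    apply hG
    exact ⟨⟨fun a b => (IsCyclic.commGroup (α := G)).mul_comm a b⟩⟩
  · rw [h3, index_top] at hidx
    exact hp.out.one_lt.ne hidx

theorem index_ne_one [IsSimpleGroup G] (hG : ¬ IsMulCommutative G) {z : G} (hz : z ≠ 1) :
    (normalizer (zpowers z : Set G)).index ≠ 1 := by
  intro h
  rw [index_eq_one, normalizer_eq_top_iff] at h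
  rcases h.eq_bot_or_eq_top with h1 | h1
  · rw [zpowers_eq_bot] at h1
    exact hz h1
  · apply hG
    have : IsCyclic G := isCyclic_iff_exists_zpowers_eq_top.2 ⟨z, h1⟩
    exact ⟨⟨fun a b => (IsCyclic.commGroup (α := G)).mul_comm a b⟩⟩

/-- Frobenius + one class of involutions, all `2`-elements involutions, `8 ∣ |G|`. -/
theorem frob_eight (h8 : 8 ∣ Nat.card G) (hsq : ∀ x : G, x ^ 8 = 1 → x ^ 2 = 1) {t : G}
    (ht : orderOf t = 2) (hone : ∀ s : G, orderOf s = 2 → IsConj s t) :
    8 ∣ 1 + (centralizer ({t} : Set G)).index := by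
  classical
  have := Fintype.ofFinite G
  have h1 := Cfsg.Agent.FrobThm.dvd_card_pow_eq_one (G := G) 8 h8
  have h2 : Nat.card {x : G // x ^ 8 = 1} =
      1 + (Finset.univ.filter (fun y : G => ConjClasses.mk y = ConjClasses.mk t)).card := by
    rw [Nat.card_eq_fintype_card, Fintype.card_subtype]
    have : (Finset.univ.filter (fun x : G => x ^ 8 = 1)) =
        insert 1 (Finset.univ.filter (fun y : G => ConjClasses.mk y = ConjClasses.mk t)) := by
      ext x
      simp only [Finset.mem_filter, Finset.mem_univ, true_and, Finset.mem_insert,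
        ConjClasses.mk_eq_mk_iff_isConj]
      constructor
      · intro hx
        by_cases hx1 : x = 1
        · exact Or.inl hx1
        · right
          apply hone
          exact orderOf_eq_prime (hsq x hx) hx1
      · rintro (rfl | hx)
        · exact one_pow _
        · obtain ⟨c, hc⟩ := isConj_iff.1 hx.symm
          rw [← hc, conj_pow]
          have : t ^ 8 = 1 := by
            rw [← orderOf_dvd_iff_pow_eq_one, ht]; norm_num
          rw [this, mul_one, mul_inv_cancel]
    rw [this, Finset.card_insert_of_notMem, add_comm]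
    intro h
    simp only [Finset.mem_filter, Finset.mem_univ, true_and, ConjClasses.mk_eq_mk_iff_isConj] at h
    rw [isConj_one_right] at h
    rw [h, orderOf_one] at ht
    omega
  rw [h2, Cfsg.Agent.FrobThm.card_filter_mk_eq] at h1
  exact h1

end Cfsg.Agent.OrdJ
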