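import Cfsg.Agent.OrdJ.Types
import Cfsg.Agent.H74.DihForm2
import Cfsg.Agent.Glaub.PGroup
import Cfsg.Agent.S0111

/-! Simple groups of order dividing `175560` with dihedral Sylow `2`-subgroups of order `8`. -/

set_option autoImplicit false

namespace Cfsg.Agent.OrdJ

open Subgroup Cfsg Cfsg.Agent.CharBase

variable {G : Type*} [Group G] [Finite G]

namespace D8

variable {S : Sylow 2 G} {σ τ : G} (d : D8 S σ τ)
include d

theorem ττ : τ * τ = 1 := by rw [← pow_two, ← d.τ_ord, pow_orderOf_eq_one]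

theorem hτσ : τ * σ = σ⁻¹ * τ := by
  rw [← d.rel]; group

theorem στ_ord : orderOf (σ * τ) = 2 := by
  apply orderOf_eq_prime
  · rw [pow_two]
    calc σ * τ * (σ * τ) = σ * (τ * σ) * τ := by group
      _ = τ * τ := by rw [d.hτσ]; group
      _ = 1 := d.ττ
  · intro h
    apply d.τ_not
    have : τ = σ⁻¹ := (eq_inv_of_mul_eq_one_right h)
    rw [this]
    exact inv_mem (mem_zpowers σ)

theorem στ_not : σ * τ ∉ zpowers σ := by
  intro h
  apply d.τ_not
  have := mul_mem (inv_mem (mem_zpowers σ)) h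
  rwa [inv_mul_cancel_left] at this

theorem le : zpowers σ ≤ (S : Subgroup G) := by rw [zpowers_le]; exact d.σ_mem

theorem relIdx : (zpowers σ).relIndex (S : Subgroup G) = 2 := by
  have h1 := card_mul_index ((zpowers σ).subgroupOf (S : Subgroup G))
  have h2 : Nat.card ((zpowers σ).subgroupOf (S : Subgroup G)) = 4 := by
    rw [Nat.card_congr (Subgroup.subgroupOfEquivOfLe d.le).toEquiv, Nat.card_zpowers, d.σ_ord]
  rw [h2, d.card] at h1
  change ((zpowers σ).subgroupOf (S : Subgroup G)).index = 2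
  omega

theorem gen : closure ({σ, τ} : Set G) = (S : Subgroup G) := by
  have hle : closure ({σ, τ} : Set G) ≤ (S : Subgroup G) := by
    rw [closure_le]
    rintro x (rfl | rfl)
    · exact d.σ_mem
    · exact d.τ_mem
  apply Subgroup.eq_of_le_of_card_ge hle
  have h1 : zpowers σ ≤ closure ({σ, τ} : Set G) := by
    rw [zpowers_le]; exact subset_closure (by simp)
  have h2 : τ ∈ closure ({σ, τ} : Set G) := subset_closure (by simp)
  have h3 : 4 ∣ Nat.card (closure ({σ, τ} : Set G)) := by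
    have := card_dvd_of_le h1
    rwa [Nat.card_zpowers, d.σ_ord] at this
  have h4 : Nat.card (closure ({σ, τ} : Set G)) ∣ 8 := by
    rw [← d.card]; exact card_dvd_of_le hle
  have h5 : Nat.card (closure ({σ, τ} : Set G)) ≠ 4 := by
    intro h
    have : zpowers σ = closure ({σ, τ} : Set G) := by
      apply Subgroup.eq_of_le_of_card_ge h1
      rw [h, Nat.card_zpowers, d.σ_ord]
    apply d.τ_not
    rw [this]; exact h2
  rw [d.card]
  obtain ⟨a, ha⟩ := h3
  have := Nat.le_of_dvd (by norm_num) h4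
  have hpos : 0 < Nat.card (closure ({σ, τ} : Set G)) := Nat.card_pos
  rw [ha] at h4 h5 this hpos ⊢
  have ha2 : a = 1 ∨ a = 2 := by omega
  omega

theorem J_uniq {u : G} (hu : u ∈ zpowers σ) (h2 : orderOf u = 2) : u = σ ^ 2 := by
  rw [mem_zpowers_iff] at hu
  obtain ⟨k, rfl⟩ := hu
  have huu : σ ^ k * σ ^ k = 1 := by rw [← pow_two, ← h2, pow_orderOf_eq_one]
  rw [← zpow_add, ← orderOf_dvd_iff_zpow_eq_one, d.σ_ord] at huu
  obtain ⟨m, hm⟩ := huu
  have hk : k = 2 * m := by push_cast at hm; omega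
  have h41 : (σ ^ 2 : G) * σ ^ 2 = 1 := by
    rw [← pow_add, show 2 + 2 = orderOf σ by rw [d.σ_ord], pow_orderOf_eq_one]
  have hkk : σ ^ k = (σ ^ 2) ^ m := by
    rw [hk, zpow_mul]; norm_cast
  rcases Int.even_or_odd' m with ⟨i, rfl | rfl⟩
  · rw [hkk, zpow_mul, zpow_two, h41, one_zpow, orderOf_one] at h2
    omega
  · rw [hkk, zpow_add_one, zpow_mul, zpow_two, h41, one_zpow, one_mul]

/-- Thompson transfer. -/
theorem conj_J [IsSimpleGroup G] (hG : ¬ IsMulCommutative G) {u : G} (hu : orderOf u = 2)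
    (huS : u ∈ (S : Subgroup G)) (hun : u ∉ zpowers σ) : IsConj (σ ^ 2) u := by
  rcases Cfsg.Agent.S0111.result S (zpowers σ) d.le d.relIdx u hu huS hun with
    ⟨M, hM, hMi, -⟩ | ⟨g, hg⟩
  · exact absurd hMi (Cfsg.Agent.H68.ST.index_ne_two hG M)
  · have h1 : orderOf (g * u * g⁻¹) = 2 := by
      rw [← hu]
      exact orderOf_injective (MulAut.conj g).toMonoidHom (MulAut.conj g).injective u
    have h2 := d.J_uniq hg h1
    rw [← h2]
    exact (isConj_iff.2 ⟨g, rfl⟩ : IsConj u (g * u * g⁻¹)).symm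

/-- **The dihedral case**: `|G| = 168 |V|` where `V` centralizes `S`. -/
theorem main [IsSimpleGroup G] (hG : ¬ IsMulCommutative G) (hd : Nat.card G ∣ 175560) :
    ∃ V : Subgroup G, Nat.card G = 168 * Nat.card V ∧
      (∀ v ∈ V, (S : Subgroup G) ≤ centralizer ({v} : Set G)) ∧
      Nat.card (centralizer ({σ ^ 2} : Set G)) = 8 * Nat.card V ∧
      V ≤ centralizer ({σ ^ 2} : Set G) ∧
      (∀ h ∈ centralizer ({σ ^ 2} : Set G), ∀ v ∈ V, h * v * h⁻¹ ∈ V) := by
  have hfin := Fintype.ofFinite G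
  obtain ⟨M, hM⟩ := Cfsg.Agent.Glaub.exists_isPModular Nat.prime_two
  obtain ⟨V, h⟩ := H74.dihBlk_of_gens hM 3 le_rfl S σ τ d.σ_mem d.τ_mem (by simpa using d.σ_ord)
    d.τ_ord d.rel d.gen
  have hm : 2 ^ (3 - 2) = 2 := by norm_num
  rw [hm] at h
  have hζ := Complex.isPrimitiveRoot_exp (2 * 2) (by norm_num)
  obtain ⟨c1, c2, c3, e, δ1, δ2, δ3, o⟩ := H74.exists_dihOut h hζ
  have hform := (H74.dih_formula h hζ o (d.conj_J hG d.τ_ord d.τ_mem d.τ_not)
    (d.conj_J hG d.στ_ord (mul_mem d.σ_mem d.τ_mem) d.στ_not)).2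
  -- centralizers
  have hcJ : Nat.card (centralizer ({σ ^ 2} : Set G)) = 8 * Nat.card V := by
    have := H74.DihBlk.card_cJ h
    rw [this]
  have hct : Nat.card (centralizer ({σ ^ 2, τ} : Set G)) =
      4 * Nat.card (V ⊓ centralizer ({τ} : Set G) : Subgroup G) := by
    rw [H74.centralizer_pair, h.vp.card_centralizer d.τ_mem,
      H74.DihBlk.card_refl h d.τ_mem d.τ_not, mul_comm]
  have hcst : Nat.card (centralizer ({σ ^ 2, σ * τ} : Set G)) =
      4 * Nat.card (V ⊓ centralizer ({σ * τ} : Set G) : Subgroup G) := by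
    rw [H74.centralizer_pair, h.vp.card_centralizer (mul_mem d.σ_mem d.τ_mem),
      H74.DihBlk.card_refl h (mul_mem d.σ_mem d.τ_mem) d.στ_not, mul_comm]
  rw [hcJ, hct, hcst] at hform
  set k := Nat.card V with hk
  have hk0 : 0 < k := Nat.card_pos
  obtain ⟨a, ha⟩ := card_dvd_of_le (inf_le_left : V ⊓ centralizer ({τ} : Set G) ≤ V)
  obtain ⟨b, hb⟩ := card_dvd_of_le (inf_le_left : V ⊓ centralizer ({σ * τ} : Set G) ≤ V)
  rw [← hk] at ha hb
  set k1 := Nat.card (V ⊓ centralizer ({τ} : Set G) : Subgroup G) with hk1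
  set k2 := Nat.card (V ⊓ centralizer ({σ * τ} : Set G) : Subgroup G) with hk2
  have hk10 : 0 < k1 := Nat.card_pos
  have hk20 : 0 < k2 := Nat.card_pos
  have ha0 : 0 < a := by
    rcases Nat.eq_zero_or_pos a with rfl | h'
    · omega
    · exact h'
  have hb0 : 0 < b := by
    rcases Nat.eq_zero_or_pos b with rfl | h'
    · omega
    · exact h'
  -- the order of `G`
  obtain ⟨r, hr⟩ : 8 * k ∣ Nat.card G := by rw [← hcJ]; exact card_subgroup_dvd_card _
  have hkr : k * r ∣ 21945 := by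
    have h1 := hd
    rw [hr] at h1
    have h2 : 8 * (k * r) ∣ 8 * 21945 := by
      rw [← mul_assoc]; exact h1
    exact Nat.dvd_of_mul_dvd_mul_left (by norm_num) h2
  have hr0 : 0 < r := by
    rcases Nat.eq_zero_or_pos r with rfl | h'
    · simp at hkr
    · exact h'
  have hrdv : r ∈ dv := mem_dv ((Dvd.intro_left k rfl).trans hkr)
  have hadv : a ∈ dv := mem_dv (((Dvd.intro_left k1 ha.symm).trans (Dvd.intro r rfl)).trans hkr)
  have hbdv : b ∈ dv := mem_dv (((Dvd.intro_left k2 hb.symm).trans (Dvd.intro r rfl)).trans hkr)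
  have hradv : r * a ∈ dv := mem_dv (by
    refine Dvd.dvd.trans ⟨k1, ?_⟩ hkr
    rw [ha]; ring)
  have hrbdv : r * b ∈ dv := mem_dv (by
    refine Dvd.dvd.trans ⟨k2, ?_⟩ hkr
    rw [hb]; ring)
  set x := charDegree (c1 : G → ℂ) with hx
  have hx0 : 0 < x := Cfsg.Agent.H79.irr_degree_pos c1
  have hxd : x ∣ Nat.card G := Cfsg.Agent.H79.irr_degree_dvd_card c1
  have hkQ : (0 : ℚ) < k := by exact_mod_cast hk0
  have hk1Q : (0 : ℚ) < k1 := by exact_mod_cast hk10
  have hk2Q : (0 : ℚ) < k2 := by exact_mod_cast hk20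
  have haQ : (0 : ℚ) < a := by exact_mod_cast ha0
  have hbQ : (0 : ℚ) < b := by exact_mod_cast hb0
  have hk1e : (k1 : ℚ) = k / a := by
    rw [eq_div_iff haQ.ne']; exact_mod_cast ha.symm
  have hk2e : (k2 : ℚ) = k / b := by
    rw [eq_div_iff hbQ.ne']; exact_mod_cast hb.symm
  have hform2 : (r : ℚ) * ((x : ℚ) - δ1) ^ 2 = 8 * x * (x + δ1) * (a + b) ^ 2 := by
    rw [hr] at hform
    push_cast at hform
    rw [hk1e, hk2e] at hform
    have e1 : (1 / (4 * ((k : ℚ) / a)) + 1 / (4 * ((k : ℚ) / b))) = (a + b) / (4 * k) := by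
      field_simp
    rw [e1] at hform
    have e2 : 2 * (x : ℚ) * (x + δ1) * (8 * k) ^ 3 * ((a + b) / (4 * k)) ^ 2 =
        (8 * k) * (8 * x * (x + δ1) * (a + b) ^ 2) := by
      field_simp
      ring
    rw [e2] at hform
    have h8k : (8 * k : ℚ) ≠ 0 := by positivity
    apply mul_left_cancel₀ h8k
    linear_combination hform
  -- `x` is odd
  have hrodd : Odd r := Odd.of_dvd_nat (by decide) ((Dvd.intro_left k rfl).trans hkr)
  have hform3 : (r : ℤ) * ((x : ℤ) - δ1) ^ 2 = 8 * x * (x + δ1) * (a + b) ^ 2 := by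
    exact_mod_cast hform2
  have hxodd : Odd x := by
    rw [← Nat.not_even_iff_odd]
    rintro ⟨y, hy⟩
    have h1 : Even ((r : ℤ) * ((x : ℤ) - δ1) ^ 2) := by
      rw [hform3]
      exact ⟨4 * x * (x + δ1) * (a + b) ^ 2, by ring⟩
    have h2 : Odd ((r : ℤ) * ((x : ℤ) - δ1) ^ 2) := by
      apply Odd.mul (by exact_mod_cast hrodd)
      apply Odd.pow
      rw [hy]
      push_cast
      rcases o.s1 with h3 | h3 <;> rw [h3]
      · exact ⟨y - 1, by ring⟩
      · exact ⟨y, by ring⟩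
    exact (Int.not_even_iff_odd.2 h2) h1
  have hxdv : x ∈ dv := by
    apply mem_dv
    have h1 : x ∣ 8 * 21945 := hxd.trans (by simpa using hd)
    have h2 : Nat.Coprime x 8 := by
      rw [show 8 = 2 ^ 3 by norm_num]
      exact Nat.Coprime.pow_right 3 (Nat.coprime_two_right.2 hxodd)
    exact h2.dvd_of_dvd_mul_left h1
  clear_value x
  have hfin : x = 7 ∧ r = 21 ∧ a = 1 ∧ b = 1 := by
    rcases o.s1 with h1 | h1
    · exfalso
      rw [h1] at hform3
      have hx1 : x ≠ 1 := by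
        intro h2
        rw [h2] at hform3
        push_cast at hform3
        have h5 : (0 : ℤ) < ((a : ℤ) + b) ^ 2 := by positivity
        linarith
      have heq : r * ((x - 1) * (x - 1)) = 8 * (x * (x + 1)) * ((a + b) * (a + b)) := by
        obtain ⟨y, rfl⟩ : ∃ y, x = y + 1 := ⟨x - 1, by omega⟩
        have : ((r * (y * y) : ℕ) : ℤ) =
            ((8 * ((y + 1) * (y + 1 + 1)) * ((a + b) * (a + b)) : ℕ) : ℤ) := by
          push_cast at hform3 ⊢
          linear_combination hform3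
        have h3 : r * (y * y) = 8 * ((y + 1) * (y + 1 + 1)) * ((a + b) * (a + b)) := by
          exact_mod_cast this
        simpa using h3
      exact dih_num' x hxdv r hrdv hx1 ⟨_, heq⟩ a hadv b hbdv heq hradv hrbdv
    · rw [h1] at hform3
      have heq : r * ((x + 1) * (x + 1)) = 8 * (x * (x - 1)) * ((a + b) * (a + b)) := by
        obtain ⟨y, rfl⟩ : ∃ y, x = y + 1 := ⟨x - 1, by omega⟩
        have : ((r * ((y + 1 + 1) * (y + 1 + 1)) : ℕ) : ℤ) =
            ((8 * ((y + 1) * y) * ((a + b) * (a + b)) : ℕ) : ℤ) := by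
          push_cast at hform3 ⊢
          linear_combination hform3
        have h3 : r * ((y + 1 + 1) * (y + 1 + 1)) = 8 * ((y + 1) * y) * ((a + b) * (a + b)) := by
          exact_mod_cast this
        simpa using h3
      exact dih_num x hxdv r hrdv ⟨_, heq⟩ a hadv b hbdv heq hradv hrbdv
  obtain ⟨-, hr21, ha1, hb1⟩ := hfin
  have hVτ : V ≤ centralizer ({τ} : Set G) := by
    rw [← inf_eq_left]
    apply Subgroup.eq_of_le_of_card_ge inf_le_left
    rw [← hk, ← hk1, ha, ha1, mul_one]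
  have hVστ : V ≤ centralizer ({σ * τ} : Set G) := by
    rw [← inf_eq_left]
    apply Subgroup.eq_of_le_of_card_ge inf_le_left
    rw [← hk, ← hk2, hb, hb1, mul_one]
  refine ⟨V, ?_, ?_, hcJ, h.vp.V_le, h.vp.normal⟩
  · rw [hr, hr21]; ring
  · intro v hv
    rw [← d.gen, closure_le]
    have h1 : v * τ = τ * v := mem_centralizer_singleton_iff.1 (hVτ hv)
    have h2 : v * (σ * τ) = (σ * τ) * v := mem_centralizer_singleton_iff.1 (hVστ hv)
    rintro y (rfl | rfl)
    · change y ∈ centralizer ({v} : Set G)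
      rw [mem_centralizer_singleton_iff]
      have h3 : y = (y * τ) * τ⁻¹ := by group
      have c1 : Commute v (y * τ) := h2
      have c2 : Commute v τ := h1
      rw [h3]
      exact (c1.mul_right c2.inv_right).eq.symm
    · change y ∈ centralizer ({v} : Set G)
      rw [mem_centralizer_singleton_iff]
      exact h1.symm

/-- `5` does not divide the order of the core. -/
theorem not_five [IsSimpleGroup G] (hG : ¬ IsMulCommutative G) (hd : Nat.card G ∣ 175560)
    {V : Subgroup G} (hV : ∀ v ∈ V, (S : Subgroup G) ≤ centralizer ({v} : Set G)) :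
    ¬ 5 ∣ Nat.card V := by
  intro h5
  have hF : Fact (Nat.Prime 5) := ⟨by norm_num⟩
  obtain ⟨⟨z, hz⟩, hzo⟩ := exists_prime_orderOf_dvd_card' 5 h5
  rw [Subgroup.orderOf_mk] at hzo
  have hsq : ¬ 5 ^ 2 ∣ Nat.card G := not_sq_dvd hd (by norm_num) (by norm_num)
  have hr1 := ratio_ne_one hG hzo hsq
  have hrd : Cfsg.Agent.H60.ratio z ∣ 2 ^ 2 := Cfsg.Agent.H60.ratio_dvd (p := 5) hzo
  have hcn := Cfsg.Agent.H60.card_normalizer_eq z
  have h8 : 8 ∣ Nat.card (centralizer ({z} : Set G)) := by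
    rw [← d.card]; exact card_dvd_of_le (hV z hz)
  have hNd : Nat.card (normalizer (zpowers z : Set G)) ∣ Nat.card G := card_subgroup_dvd_card _
  obtain ⟨m, -, hm⟩ := (Nat.dvd_prime_pow Nat.prime_two).1 hrd
  rcases m with _ | m
  · exact hr1 hm
  · obtain ⟨c, hc⟩ := h8
    apply not_sixteen hd
    refine Dvd.dvd.trans ⟨c * 2 ^ m, ?_⟩ hNd
    rw [hcn, hc, hm, pow_succ]; ring

theorem card_ne [IsSimpleGroup G] (hG : ¬ IsMulCommutative G) (hc : Nat.card G = 175560) :
    False := by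
  have hd : Nat.card G ∣ 175560 := by rw [hc]
  obtain ⟨V, h1, h2, -⟩ := d.main hG hd
  apply d.not_five hG hd h2
  rw [hc] at h1
  omega

end D8

end Cfsg.Agent.OrdJ
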