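import Cfsg.Agent.OrdJ.Basic

/-! Simple groups of order dividing `175560` with elementary abelian Sylow `2`-subgroups of
order `8`: fusion. -/

set_option autoImplicit false

namespace Cfsg.Agent.OrdJ

open Subgroup Cfsg.Agent.H60

/-- simple group of order dividing `175560` with elementary abelian Sylow `2`-subgroup `S` of
order `8` -/
structure E8 {G : Type*} [Group G] [Finite G] (S : Sylow 2 G) : Prop where
  simple : IsSimpleGroup G
  ncomm : ¬ IsMulCommutative G
  card : Nat.card (S : Subgroup G) = 8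
  invol : ∀ x ∈ (S : Subgroup G), x * x = 1
  dvd : Nat.card G ∣ 175560

namespace E8

variable {G : Type*} [Group G] [Finite G] {S : Sylow 2 G} (h : E8 S)
include h

theorem inv_eq {x : G} (hx : x ∈ (S : Subgroup G)) : x⁻¹ = x :=
  inv_eq_of_mul_eq_one_left (h.invol x hx)

theorem comm {x y : G} (hx : x ∈ (S : Subgroup G)) (hy : y ∈ (S : Subgroup G)) :
    x * y = y * x := by
  have h1 := h.inv_eq (mul_mem hx hy)
  rw [mul_inv_rev, h.inv_eq hx, h.inv_eq hy] at h1
  exact h1.symm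

theorem isComm : IsMulCommutative (S : Subgroup G) :=
  ⟨⟨fun a b => Subtype.ext (h.comm a.2 b.2)⟩⟩

theorem two_elt {x : G} {k : ℕ} (hx : x ^ 2 ^ k = 1) : x * x = 1 := by
  obtain ⟨g, hg⟩ := Cfsg.Agent.H4.exists_conj_mem_sylow S hx
  have h1 := h.invol _ hg
  have h2 : g * x * g⁻¹ * (g * x * g⁻¹) = g * (x * x) * g⁻¹ := by group
  rw [h2] at h1
  exact conj_eq_one_iff.mp h1

theorem le_cent {t : G} (ht : t ∈ (S : Subgroup G)) :
    (S : Subgroup G) ≤ centralizer ({t} : Set G) := by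
  intro x hx
  rw [mem_centralizer_singleton_iff]
  exact h.comm hx ht

/-- An element centralizing `t` does not move `s` to `s t`. -/
theorem fix {t s c : G} (ht : t * t = 1) (hs : s * s = 1) (hst : s * t = t * s)
    (hct : c * t = t * c) (hc : c * s * c⁻¹ = s * t) : t = 1 := by
  obtain ⟨a, m, hm, hcm⟩ := Nat.exists_eq_two_pow_mul_odd (orderOf_pos c).ne'
  obtain ⟨j, rfl⟩ := hm
  have hc' : c * s = s * t * c := by rw [← hc]; group
  have hc2 : Commute (c * c) s := by
    change c * c * s = s * (c * c)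
    calc c * c * s = c * (c * s) := by group
      _ = c * (s * t * c) := by rw [hc']
      _ = (c * s) * (t * c) := by group
      _ = s * t * c * (t * c) := by rw [hc']
      _ = s * t * (c * t) * c := by group
      _ = s * t * (t * c) * c := by rw [hct]
      _ = s * (t * t) * (c * c) := by group
      _ = s * (c * c) := by rw [ht]; group
  have hodd : c ^ (2 * j + 1) * s = s * t * c ^ (2 * j + 1) := by
    have h1 : Commute ((c * c) ^ j) s := hc2.pow_left j
    have h2 : Commute ((c * c) ^ j) t := by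
      have : Commute c t := hct
      exact (this.mul_left this).pow_left j
    rw [pow_succ, pow_mul, sq, mul_assoc, hc']
    calc (c * c) ^ j * (s * t * c) = ((c * c) ^ j * s) * (t * c) := by group
      _ = (s * (c * c) ^ j) * (t * c) := by rw [h1.eq]
      _ = s * ((c * c) ^ j * t) * c := by group
      _ = s * (t * (c * c) ^ j) * c := by rw [h2.eq]
      _ = _ := by group
  set d := c ^ (2 * j + 1) with hd
  have hdd : d * d = 1 := by
    apply h.two_elt (k := a)
    rw [hd, ← pow_mul, mul_comm, ← hcm, pow_orderOf_eq_one]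
  have hx : s * d * (s * d) = t := by
    calc s * d * (s * d) = s * (d * s) * d := by group
      _ = s * (s * t * d) * d := by rw [hodd]
      _ = (s * s) * t * (d * d) := by group
      _ = t := by rw [hs, hdd, one_mul, mul_one]
  have h4 : (s * d) ^ 2 ^ 2 = 1 := by
    rw [show 2 ^ 2 = 2 * 2 by norm_num, pow_mul, sq, sq, hx, ht]
  have := h.two_elt h4
  rw [hx] at this
  exact this

theorem ne_one_order {t : G} (ht : t ∈ (S : Subgroup G)) (ht1 : t ≠ 1) : orderOf t = 2 :=
  orderOf_eq_prime (by rw [sq]; exact h.invol t ht) ht1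

theorem fus {x g : G} (hx : x ∈ (S : Subgroup G)) (hg : g * x * g⁻¹ ∈ (S : Subgroup G)) :
    ∃ n ∈ normalizer ((S : Subgroup G) : Set G), n * x * n⁻¹ = g * x * g⁻¹ := by
  have := h.isComm
  obtain ⟨n, hn, e⟩ := S.conj_eq_normalizer_conj_of_mem x g⁻¹ hx
    (by rw [inv_inv]; exact hg)
  refine ⟨n⁻¹, inv_mem hn, ?_⟩
  simpa using e.symm

theorem not_fixed {t : G} (ht : t ∈ (S : Subgroup G)) (ht1 : t ≠ 1) :
    ∃ n ∈ normalizer ((S : Subgroup G) : Set G), n * t * n⁻¹ ≠ t := by
  by_contra hcon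
  push Not at hcon
  have := h.simple
  apply Cfsg.Agent.H68.ST.not_isolated h.ncomm t
  refine ⟨h.ne_one_order ht ht1, ?_⟩
  intro g hg
  have hmem : g * t * g⁻¹ ∈ centralizer ({t} : Set G) := by
    rw [mem_centralizer_singleton_iff]
    exact hg.symm
  have hpow : (⟨g * t * g⁻¹, hmem⟩ : centralizer ({t} : Set G)) ^ 2 ^ 1 = 1 := by
    apply Subtype.ext
    change (g * t * g⁻¹) ^ 2 ^ 1 = 1
    rw [pow_one, conj_pow, sq, h.invol t ht, mul_one, mul_inv_cancel]
  obtain ⟨c, hc⟩ := Cfsg.Agent.H4.exists_conj_mem_sylow (S.subtype (h.le_cent ht)) hpow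
  have hc1 : (c : G) * (g * t * g⁻¹) * (c : G)⁻¹ ∈ (S : Subgroup G) := hc
  have hc2 : (c : G) * t = t * c := mem_centralizer_singleton_iff.1 c.2
  have e1 : (c : G) * (g * t * g⁻¹) * (c : G)⁻¹ = (c * g) * t * (c * g)⁻¹ := by group
  rw [e1] at hc1
  obtain ⟨n, hn, e2⟩ := h.fus ht hc1
  rw [hcon n hn, ← e1] at e2
  calc g * t * g⁻¹ = (c : G)⁻¹ * ((c : G) * (g * t * g⁻¹) * (c : G)⁻¹) * c := by group
    _ = (c : G)⁻¹ * t * c := by rw [← e2]
    _ = (c : G)⁻¹ * (t * c) := by group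
    _ = (c : G)⁻¹ * (c * t) := by rw [hc2]
    _ = t := by group

end E8

/-- conjugation action of a subgroup -/
@[reducible] def cAct {G : Type*} [Group G] (N : Subgroup G) : MulAction N G :=
  MulAction.compHom G ((MulAut.conj : G →* MulAut G).comp N.subtype)

/-- the orbit under conjugation -/
def cOrb {G : Type*} [Group G] (N : Subgroup G) (t : G) : Set G :=
  {x | ∃ n ∈ N, n * t * n⁻¹ = x}

section

variable {G : Type*} [Group G] [Finite G]

theorem ncard_cOrb (N M : Subgroup G) (t : G) (hM : ∀ m ∈ M, m * t * m⁻¹ = t) :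
    (cOrb N t).ncard ∣ (M.subgroupOf N).index := by
  letI := cAct N
  have h1 : cOrb N t = MulAction.orbit N t := by
    ext x
    constructor
    · rintro ⟨n, hn, rfl⟩
      exact ⟨⟨n, hn⟩, rfl⟩
    · rintro ⟨n, rfl⟩
      exact ⟨n, n.2, rfl⟩
  rw [h1, ← MulAction.index_stabilizer]
  apply index_dvd_of_le
  intro n hn
  rw [MulAction.mem_stabilizer_iff]
  exact hM n (mem_subgroupOf.1 hn)

end

namespace E8

variable {G : Type*} [Group G] [Finite G] {S : Sylow 2 G} (h : E8 S)
include h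

theorem cOrb_sub {t : G} (ht : t ∈ (S : Subgroup G)) (ht1 : t ≠ 1) :
    cOrb (normalizer ((S : Subgroup G) : Set G)) t ⊆ ((S : Subgroup G) : Set G) \ {1} := by
  rintro _ ⟨n, hn, rfl⟩
  refine ⟨(mem_normalizer_iff.1 hn t).1 ht, ?_⟩
  rw [Set.mem_singleton_iff, conj_eq_one_iff]
  exact ht1

theorem cOrb_odd {t : G} (ht : t ∈ (S : Subgroup G)) :
    Odd (cOrb (normalizer ((S : Subgroup G) : Set G)) t).ncard := by
  have h1 := ncard_cOrb (normalizer ((S : Subgroup G) : Set G)) (S : Subgroup G) t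
    (fun m hm => by rw [h.comm hm ht, mul_inv_cancel_right])
  have h2 : ((S : Subgroup G).subgroupOf (normalizer ((S : Subgroup G) : Set G))).index ∣
      (S : Subgroup G).index := relIndex_dvd_index_of_le le_normalizer
  have h3 : ¬ 2 ∣ (S : Subgroup G).index := S.not_dvd_index
  rw [← Nat.not_even_iff_odd, even_iff_two_dvd]
  intro h4
  exact h3 (h4.trans (h1.trans h2))

theorem cOrb_three {t : G} (ht : t ∈ (S : Subgroup G)) (ht1 : t ≠ 1) :
    3 ≤ (cOrb (normalizer ((S : Subgroup G) : Set G)) t).ncard := by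
  have h1 := h.cOrb_odd ht
  obtain ⟨n, hn, hne⟩ := h.not_fixed ht ht1
  have h2 : 1 < (cOrb (normalizer ((S : Subgroup G) : Set G)) t).ncard := by
    rw [Set.one_lt_ncard]
    exact ⟨t, ⟨1, one_mem _, by group⟩, _, ⟨n, hn, rfl⟩, hne.symm⟩
  obtain ⟨k, hk⟩ := h1
  omega

theorem ncard_S : (((S : Subgroup G) : Set G) \ {1}).ncard = 7 := by
  have h1 : ((S : Subgroup G) : Set G).ncard = 8 := by
    rw [← Nat.card_coe_set_eq]
    exact h.card
  have h2 := Set.ncard_sdiff_singleton_of_mem (S : Subgroup G).one_mem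
  have h3 : (((S : Subgroup G) : Set G) \ {1}).ncard = ((S : Subgroup G) : Set G).ncard - 1 := h2
  rw [h3, h1]

/-- `N(S)` is transitive on the involutions of `S`. -/
theorem trans {t : G} (ht : t ∈ (S : Subgroup G)) (ht1 : t ≠ 1) :
    cOrb (normalizer ((S : Subgroup G) : Set G)) t = ((S : Subgroup G) : Set G) \ {1} := by
  set N := normalizer ((S : Subgroup G) : Set G) with hN
  by_contra hne
  have hss : cOrb N t ⊂ ((S : Subgroup G) : Set G) \ {1} :=
    (h.cOrb_sub ht ht1).ssubset_of_ne hne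
  obtain ⟨s, hs, hsn⟩ := Set.exists_of_ssubset hss
  have hdisj : ∀ a b : G, b ∉ cOrb N a → Disjoint (cOrb N a) (cOrb N b) := by
    intro a b hab
    rw [Set.disjoint_left]
    rintro x ⟨n, hn, rfl⟩ ⟨m, hm, e⟩
    apply hab
    refine ⟨m⁻¹ * n, N.mul_mem (N.inv_mem hm) hn, ?_⟩
    calc m⁻¹ * n * a * (m⁻¹ * n)⁻¹ = m⁻¹ * (n * a * n⁻¹) * m := by group
      _ = m⁻¹ * (m * b * m⁻¹) * m := by rw [e]
      _ = b := by group
  have hfin : ∀ A : Set G, A.Finite := fun A => Set.toFinite A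
  have h7 := h.ncard_S
  have ht3 := h.cOrb_three ht ht1
  have hs3 := h.cOrb_three hs.1 hs.2
  have hto := h.cOrb_odd ht
  have hso := h.cOrb_odd hs.1
  rw [← hN] at ht3 hs3 hto hso
  have hu : (cOrb N t ∪ cOrb N s).ncard = (cOrb N t).ncard + (cOrb N s).ncard :=
    Set.ncard_union_eq (hdisj t s hsn) (hfin _) (hfin _)
  have hsub : cOrb N t ∪ cOrb N s ⊆ ((S : Subgroup G) : Set G) \ {1} :=
    Set.union_subset (h.cOrb_sub ht ht1) (h.cOrb_sub hs.1 hs.2)
  have hle := Set.ncard_le_ncard hsub (hfin _)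
  have hne2 : cOrb N t ∪ cOrb N s ≠ ((S : Subgroup G) : Set G) \ {1} := by
    intro e
    rw [e, h7] at hu
    obtain ⟨a, ha⟩ := hto
    obtain ⟨b, hb⟩ := hso
    omega
  obtain ⟨r, hr, hrn⟩ := Set.exists_of_ssubset (hsub.ssubset_of_ne hne2)
  have hr3 := h.cOrb_three hr.1 hr.2
  rw [← hN] at hr3
  have hd1 : Disjoint (cOrb N t ∪ cOrb N s) (cOrb N r) := by
    rw [Set.disjoint_union_left]
    exact ⟨hdisj t r fun h' => hrn (Or.inl h'), hdisj s r fun h' => hrn (Or.inr h')⟩
  have hu2 := Set.ncard_union_eq hd1 (hfin _) (hfin _)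
  have hsub2 : (cOrb N t ∪ cOrb N s) ∪ cOrb N r ⊆ ((S : Subgroup G) : Set G) \ {1} :=
    Set.union_subset hsub (h.cOrb_sub hr.1 hr.2)
  have hle2 := Set.ncard_le_ncard hsub2 (hfin _)
  omega

theorem exists_conj {t s : G} (ht : t ∈ (S : Subgroup G)) (ht1 : t ≠ 1)
    (hs : s ∈ (S : Subgroup G)) (hs1 : s ≠ 1) :
    ∃ n ∈ normalizer ((S : Subgroup G) : Set G), n * t * n⁻¹ = s := by
  have h1 : s ∈ ((S : Subgroup G) : Set G) \ {1} := ⟨hs, hs1⟩
  rw [← h.trans ht ht1] at h1
  exact h1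

/-- One class of involutions. -/
theorem one_class {t : G} (ht : t ∈ (S : Subgroup G)) (ht1 : t ≠ 1) {s : G}
    (hs : orderOf s = 2) : IsConj s t := by
  have hp : s ^ 2 ^ 1 = 1 := by rw [pow_one, ← hs, pow_orderOf_eq_one]
  obtain ⟨g, hg⟩ := Cfsg.Agent.H4.exists_conj_mem_sylow S hp
  have hg1 : g * s * g⁻¹ ≠ 1 := by
    rw [Ne, conj_eq_one_iff]
    rintro rfl
    rw [orderOf_one] at hs
    omega
  obtain ⟨n, -, hn⟩ := h.exists_conj hg hg1 ht ht1
  rw [isConj_iff]
  exact ⟨n * g, by rw [← hn]; group⟩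

/-- `7` divides `|N(S) : C(S)|`. -/
theorem seven_dvd : 7 ∣ ((centralizer ((S : Subgroup G) : Set G)).subgroupOf
    (normalizer ((S : Subgroup G) : Set G))).index := by
  obtain ⟨t, ht⟩ : (((S : Subgroup G) : Set G) \ {1}).Nonempty := by
    rw [← Set.ncard_pos (Set.toFinite _), h.ncard_S]
    norm_num
  have h1 := ncard_cOrb (normalizer ((S : Subgroup G) : Set G))
    (centralizer ((S : Subgroup G) : Set G)) t (fun m hm => by
      rw [mem_centralizer_iff] at hm
      rw [← hm t ht.1, mul_inv_cancel_right])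
  rw [h.trans ht.1 ht.2, h.ncard_S] at h1
  exact h1

theorem eight_dvd : 8 ∣ Nat.card G := by
  rw [← h.card]
  exact card_subgroup_dvd_card _

/-- Frobenius. -/
theorem frob {t : G} (ht : t ∈ (S : Subgroup G)) (ht1 : t ≠ 1) :
    8 ∣ 1 + (centralizer ({t} : Set G)).index := by
  apply frob_eight h.eight_dvd
  · intro x hx
    rw [sq]
    exact h.two_elt (k := 3) (by simpa using hx)
  · exact h.ne_one_order ht ht1
  · intro s hs
    exact h.one_class ht ht1 hs

end E8

end Cfsg.Agent.OrdJ
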