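import Cfsg.Agent.OrdJ.Eight

/-! `C(S) = S`. -/

set_option autoImplicit false

namespace Cfsg.Agent.OrdJ

open Subgroup Cfsg.Agent.H60

section

variable {G : Type*} [Group G] [Finite G]

theorem card_normalizer_dvd (N : Subgroup G) (z : N) :
    Nat.card (normalizer (zpowers z : Set N)) ∣ Nat.card (normalizer (zpowers (z : G) : Set G)) := by
  have h1 : (normalizer (zpowers z : Set N)).map N.subtype ≤
      normalizer (zpowers (z : G) : Set G) := by
    have h2 := le_normalizer_map (H := zpowers z) N.subtype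
    rw [MonoidHom.map_zpowers] at h2
    exact h2
  have h3 : Nat.card ((normalizer (zpowers z : Set N)).map N.subtype) =
      Nat.card (normalizer (zpowers z : Set N)) :=
    Subgroup.card_map_of_injective N.subtype_injective
  rw [← h3]
  exact card_dvd_of_le h1

/-- Frattini: an element of prime order (exactly dividing) of `X`, with `X` normal in `N`. -/
theorem frattini_dvd {N X : Subgroup G} (hn : (X.subgroupOf N).Normal) (hXN : X ≤ N) {p : ℕ}
    [hp : Fact p.Prime] {z : G} (hz : orderOf z = p) (h2 : ¬ p ^ 2 ∣ Nat.card G) (hzX : z ∈ X) :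
    (X.subgroupOf N).index * p ∣ Nat.card (normalizer (zpowers z : Set G)) := by
  have hzo : orderOf (⟨z, hXN hzX⟩ : N) = p := by rw [← Subgroup.orderOf_coe]; exact hz
  have h2' : ¬ p ^ 2 ∣ Nat.card N := fun h => h2 (h.trans (card_subgroup_dvd_card N))
  have hle : (sylZ hzo h2' : Subgroup N) ≤ X.subgroupOf N := by
    change zpowers (⟨z, hXN hzX⟩ : N) ≤ _
    rw [zpowers_le, mem_subgroupOf]
    exact hzX
  have h3 := card_quot_mul_dvd (N := X.subgroupOf N) (sylZ hzo h2') hle
  have hc : Nat.card (sylZ hzo h2' : Subgroup N) = p := by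
    change Nat.card (zpowers (⟨z, hXN hzX⟩ : N)) = p
    rw [Nat.card_zpowers, hzo]
  have h4 : Nat.card (sylZ hzo h2') = p := hc
  rw [h4] at h3
  exact h3.trans (card_normalizer_dvd N ⟨z, hXN hzX⟩)

end

namespace E8

variable {G : Type*} [Group G] [Finite G] {S : Sylow 2 G} (h : E8 S)
include h

theorem S_le_centS : (S : Subgroup G) ≤ centralizer ((S : Subgroup G) : Set G) := by
  intro x hx
  rw [mem_centralizer_iff]
  intro y hy
  exact h.comm hy hx

theorem not_sixteen' : ¬ 16 ∣ Nat.card G := not_sixteen h.dvd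

theorem prime_cases {p : ℕ} (hp : p.Prime) (hd : p ∣ Nat.card G) (h2 : p ≠ 2) :
    p = 3 ∨ p = 5 ∨ p = 7 ∨ p = 11 ∨ p = 19 := by
  rcases prime_mem hp (hd.trans h.dvd) with h1 | h1
  · exact absurd h1 h2
  · exact h1

/-- `C(S) = S`. -/
theorem cent_eq : centralizer ((S : Subgroup G) : Set G) = (S : Subgroup G) := by
  have hsim := h.simple
  set X := centralizer ((S : Subgroup G) : Set G) with hX
  set N := normalizer ((S : Subgroup G) : Set G) with hN
  by_contra hne
  -- an odd prime divides |C(S)|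
  obtain ⟨k, hk⟩ := card_dvd_of_le h.S_le_centS
  rw [h.card, ← hX] at hk
  have hk1 : k ≠ 1 := by
    rintro rfl
    apply hne
    symm
    apply Subgroup.eq_of_le_of_card_ge h.S_le_centS
    rw [← hX, hk, h.card]
  obtain ⟨p, hp, hpk⟩ := Nat.exists_prime_and_dvd hk1
  have hpF : Fact p.Prime := ⟨hp⟩
  have hX8 : 8 * k ∣ Nat.card G := by rw [← hk]; exact card_subgroup_dvd_card X
  have hp2 : p ≠ 2 := by
    rintro rfl
    apply h.not_sixteen'
    exact (Dvd.dvd.trans (by obtain ⟨c, rfl⟩ := hpk; exact ⟨c, by ring⟩) hX8)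
  have hpG : p ∣ Nat.card G := (hpk.trans (Dvd.intro_left 8 rfl)).trans hX8
  have hpX : p ∣ Nat.card X := by rw [hk]; exact hpk.trans (Dvd.intro_left 8 rfl)
  obtain ⟨⟨z, hzX⟩, hzo⟩ := exists_prime_orderOf_dvd_card' p hpX
  rw [Subgroup.orderOf_mk] at hzo
  have hsqd : ¬ p ^ 2 ∣ Nat.card G := not_sq_dvd h.dvd hp hp2
  have hSz : (S : Subgroup G) ≤ centralizer ({z} : Set G) := by
    intro x hx
    rw [mem_centralizer_singleton_iff]
    exact mem_centralizer_iff.1 hzX x hx
  have h8z : 8 ∣ Nat.card (centralizer ({z} : Set G)) := by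
    rw [← h.card]; exact card_dvd_of_le hSz
  have hcn := card_normalizer_eq z
  have hr1 := ratio_ne_one h.ncomm hzo hsqd
  have hrd := ratio_dvd (p := p) hzo
  have hNd : Nat.card (normalizer (zpowers z : Set G)) ∣ Nat.card G := card_subgroup_dvd_card _
  have hXN : X ≤ N := centralizer_le_normalizer _
  have hnorm : (X.subgroupOf N).Normal := by
    rw [hX, hN, ← normalizerMonoidHom_ker]
    infer_instance
  have hfr := frattini_dvd hnorm hXN hzo hsqd hzX
  have h7 := h.seven_dvd
  rw [← hX, ← hN] at h7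
  have h7p : 7 * p ∣ Nat.card (normalizer (zpowers z : Set G)) :=
    (Nat.mul_dvd_mul_right h7 p).trans hfr
  have hidx1 := index_ne_one h.ncomm (z := z) (by
    rintro rfl
    rw [orderOf_one] at hzo
    exact hp.one_lt.ne hzo)
  have hmod := index_normalizer_modEq hzo hsqd
  have hci := Subgroup.card_mul_index (normalizer (zpowers z : Set G))
  have h8N : 8 ∣ Nat.card (normalizer (zpowers z : Set G)) := h8z.trans ⟨_, hcn⟩
  have heven : 2 ∣ ratio z → False := by
    rintro ⟨c, hc⟩
    obtain ⟨d, hd⟩ := h8z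
    apply h.not_sixteen'
    refine Dvd.dvd.trans ⟨d * c, ?_⟩ hNd
    rw [hcn, hc, hd]; ring
  rcases h.prime_cases hp hpG hp2 with rfl | rfl | rfl | rfl | rfl
  · -- 3
    have : ratio z ∣ 2 := hrd
    rcases (Nat.dvd_prime Nat.prime_two).1 this with h3 | h3
    · exact hr1 h3
    · exact heven ⟨1, h3⟩
  · -- 5
    have h3 : ratio z ∣ 2 ^ 2 := hrd
    obtain ⟨m, -, hm⟩ := (Nat.dvd_prime_pow Nat.prime_two).1 h3
    rcases m with _ | m
    · exact hr1 hm
    · exact heven ⟨2 ^ m, by rw [hm, pow_succ, mul_comm]⟩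
  · -- 7
    exact hsqd ((show 7 ^ 2 ∣ 7 * 7 by norm_num).trans (h7p.trans hNd))
  · -- 11
    have h616 : 616 ∣ Nat.card (normalizer (zpowers z : Set G)) := by
      have : Nat.Coprime 8 77 := by norm_num
      exact this.mul_dvd_of_dvd_of_dvd h8N h7p
    obtain ⟨c, hc⟩ := h616
    have h1 : (normalizer (zpowers z : Set G)).index ∣ 285 := by
      have h2 : 616 * (c * (normalizer (zpowers z : Set G)).index) ∣ 616 * 285 := by
        rw [← mul_assoc, ← hc, hci]; exact h.dvd
      exact (Dvd.intro_left c rfl).trans (Nat.dvd_of_mul_dvd_mul_left (by norm_num) h2)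
    exact hidx1 (syl_eleven h1 hmod)
  · -- 19
    have h616 : 1064 ∣ Nat.card (normalizer (zpowers z : Set G)) := by
      have : Nat.Coprime 8 133 := by norm_num
      exact this.mul_dvd_of_dvd_of_dvd h8N h7p
    obtain ⟨c, hc⟩ := h616
    have h1 : (normalizer (zpowers z : Set G)).index ∣ 165 := by
      have h2 : 1064 * (c * (normalizer (zpowers z : Set G)).index) ∣ 1064 * 165 := by
        rw [← mul_assoc, ← hc, hci]; exact h.dvd
      exact (Dvd.intro_left c rfl).trans (Nat.dvd_of_mul_dvd_mul_left (by norm_num) h2)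
    exact hidx1 (syl_nineteen h1 hmod)

end E8

end Cfsg.Agent.OrdJ
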