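import Cfsg.Agent.OrdJ.Eight2

/-! The case where `N(S) ∩ C(t) = S`: then `|C(t)| = 8`. -/

set_option autoImplicit false

namespace Cfsg.Agent.OrdJ

open Subgroup Cfsg.Agent.H60

namespace E8

variable {G : Type*} [Group G] [Finite G] {S : Sylow 2 G} (h : E8 S)
include h

/-- An involution of `S` normalizing `⟨z⟩` centralizes or inverts `z`. -/
theorem dich {p : ℕ} [hp : Fact p.Prime] {z s : G} (hz : orderOf z = p)
    (hs : s ∈ (S : Subgroup G)) (hn : s ∈ normalizer (zpowers z : Set G)) :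
    s * z = z * s ∨ s * z * s⁻¹ = z⁻¹ := by
  have h1 : s * z * s⁻¹ ∈ zpowers z := (mem_normalizer_iff.1 hn z).1 (mem_zpowers z)
  obtain ⟨k, hk⟩ := h1
  have hk' : s * z * s⁻¹ = z ^ k := hk.symm
  have hss := h.invol s hs
  have h2 : z ^ (k * k) = z := by
    rw [zpow_mul, ← hk', conj_zpow, ← hk']
    calc s * (s * z * s⁻¹) * s⁻¹ = (s * s) * z * (s * s)⁻¹ := by group
      _ = z := by rw [hss]; group
  have h3 : z ^ (k * k - 1) = 1 := by rw [zpow_sub, h2, zpow_one, mul_inv_cancel]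
  have h4 : (p : ℤ) ∣ (k - 1) * (k + 1) := by
    have := orderOf_dvd_iff_zpow_eq_one.2 h3
    rw [hz] at this
    rwa [show (k - 1) * (k + 1) = k * k - 1 by ring]
  rcases (Int.Prime.dvd_mul' hp.out h4) with h5 | h5
  · left
    have h6 : z ^ (k - 1) = 1 := orderOf_dvd_iff_zpow_eq_one.1 (by rw [hz]; exact h5)
    have h7 : z ^ k = z := by
      have := congrArg (· * z) h6
      simpa [← zpow_add_one] using this
    rw [h7] at hk'
    calc s * z = (s * z * s⁻¹) * s := by group
      _ = z * s := by rw [hk']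
  · right
    have h6 : z ^ (k + 1) = 1 := orderOf_dvd_iff_zpow_eq_one.1 (by rw [hz]; exact h5)
    rw [hk']
    rw [zpow_add_one] at h6
    exact eq_inv_of_mul_eq_one_left h6

/-- products of two inverting elements centralize -/
theorem dich_mul {z a b : G} (ha : a * z * a⁻¹ = z⁻¹) (hb : b * z * b⁻¹ = z⁻¹) :
    (a * b) * z = z * (a * b) := by
  have h1 : a * b * z * (a * b)⁻¹ = z := by
    calc a * b * z * (a * b)⁻¹ = a * (b * z * b⁻¹) * a⁻¹ := by group
      _ = a * z⁻¹ * a⁻¹ := by rw [hb]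
      _ = (a * z * a⁻¹)⁻¹ := by group
      _ = z := by rw [ha, inv_inv]
  calc a * b * z = (a * b * z * (a * b)⁻¹) * (a * b) := by group
    _ = z * (a * b) := by rw [h1]

/-- elements outside a small set -/
theorem exists_not_mem (A : Finset G) (hA : A.card ≤ 7) : ∃ x ∈ (S : Subgroup G), x ∉ A := by
  classical
  by_contra hcon
  push Not at hcon
  have h1 : ((S : Subgroup G) : Set G).ncard ≤ (A : Set G).ncard :=
    Set.ncard_le_ncard (fun x hx => hcon x hx) (Set.toFinite _)
  have h2 : ((S : Subgroup G) : Set G).ncard = 8 := by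
    rw [← Nat.card_coe_set_eq]
    exact h.card
  rw [h2, Set.ncard_coe_finset] at h1
  omega

variable {p : ℕ} [hp : Fact p.Prime]

/-- another involution of `S` centralizing `z` -/
theorem exists_second {z t : G} (hz : orderOf z = p)
    (hS : (S : Subgroup G) ≤ normalizer (zpowers z : Set G)) (ht : t ∈ (S : Subgroup G)) :
    ∃ x ∈ (S : Subgroup G), x ≠ 1 ∧ x ≠ t ∧ x * z = z * x := by
  classical
  obtain ⟨a, ha, ha'⟩ := h.exists_not_mem {1, t} ((Finset.card_le_two).trans (by norm_num))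
  obtain ⟨b, hb, hb'⟩ := h.exists_not_mem {1, t, a, t * a}
    ((Finset.card_le_four).trans (by norm_num))
  simp only [Finset.mem_insert, Finset.mem_singleton, not_or] at ha' hb'
  rcases h.dich hz ha (hS ha) with h1 | h1
  · exact ⟨a, ha, ha'.1, ha'.2, h1⟩
  rcases h.dich hz hb (hS hb) with h2 | h2
  · exact ⟨b, hb, hb'.1, hb'.2.1, h2⟩
  refine ⟨a * b, mul_mem ha hb, ?_, ?_, h.dich_mul h1 h2⟩
  · intro e
    apply hb'.2.2.1
    calc b = a⁻¹ * (a * b) := by group
      _ = a⁻¹ := by rw [e, mul_one]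
      _ = a := h.inv_eq ha
  · intro e
    apply hb'.2.2.2
    calc b = a⁻¹ * (a * b) := by group
      _ = a * t := by rw [e, h.inv_eq ha]
      _ = t * a := h.comm ha ht

/-- a common centralizing involution -/
theorem exists_common {z z' t : G} (hz : orderOf z = p) (hz' : orderOf z' = p)
    (hS : (S : Subgroup G) ≤ normalizer (zpowers z : Set G))
    (hS' : (S : Subgroup G) ≤ normalizer (zpowers z' : Set G)) (ht : t ∈ (S : Subgroup G))
    (ht1 : t ≠ 1) (htz : t * z = z * t) :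
    ∃ s ∈ (S : Subgroup G), s ≠ 1 ∧ s * z = z * s ∧ s * z' = z' * s := by
  obtain ⟨x, hx, hx1, hxt, hxz⟩ := h.exists_second hz hS ht
  rcases h.dich hz' ht (hS' ht) with h1 | h1
  · exact ⟨t, ht, ht1, htz, h1⟩
  rcases h.dich hz' hx (hS' hx) with h2 | h2
  · exact ⟨x, hx, hx1, hxz, h2⟩
  refine ⟨t * x, mul_mem ht hx, ?_, ?_, h.dich_mul h1 h2⟩
  · intro e
    apply hxt
    calc x = t⁻¹ * (t * x) := by group
      _ = t := by rw [e, mul_one, h.inv_eq ht]
  · calc t * x * z = t * (x * z) := by group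
      _ = t * (z * x) := by rw [hxz]
      _ = (t * z) * x := by group
      _ = z * (t * x) := by rw [htz]; group

/-- the hypothesis `(α)` is inherited by all involutions of `S` -/
theorem alpha_all {t : G} (ht : t ∈ (S : Subgroup G)) (ht1 : t ≠ 1)
    (hα : ∀ n ∈ normalizer ((S : Subgroup G) : Set G), n * t = t * n → n ∈ (S : Subgroup G))
    {s : G} (hs : s ∈ (S : Subgroup G)) (hs1 : s ≠ 1) :
    ∀ n ∈ normalizer ((S : Subgroup G) : Set G), n * s = s * n → n ∈ (S : Subgroup G) := by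
  intro n hn hns
  obtain ⟨m, hm, rfl⟩ := h.exists_conj ht ht1 hs hs1
  have h1 : m⁻¹ * n * m ∈ (S : Subgroup G) := by
    apply hα _ (mul_mem (mul_mem (inv_mem hm) hn) hm)
    calc m⁻¹ * n * m * t = m⁻¹ * (n * (m * t * m⁻¹)) * m := by group
      _ = m⁻¹ * ((m * t * m⁻¹) * n) * m := by rw [hns]
      _ = _ := by group
  have h2 := (mem_normalizer_iff.1 hm _).1 h1
  rwa [show m * (m⁻¹ * n * m) * m⁻¹ = n by group] at h2

/-- `S`-invariant subgroups of prime order are `N(S)`-invariant. -/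
theorem alpha_inv {t : G} (ht : t ∈ (S : Subgroup G)) (ht1 : t ≠ 1)
    (hα : ∀ n ∈ normalizer ((S : Subgroup G) : Set G), n * t = t * n → n ∈ (S : Subgroup G))
    (hsq : ¬ p ^ 2 ∣ Nat.card G) {z z' : G} (hz : orderOf z = p) (hz' : orderOf z' = p)
    (hS : (S : Subgroup G) ≤ normalizer (zpowers z : Set G))
    (hS' : (S : Subgroup G) ≤ normalizer (zpowers z' : Set G)) (htz : t * z = z * t) :
    zpowers z = zpowers z' := by
  obtain ⟨s, hs, hs1, hsz, hsz'⟩ := h.exists_common hz hz' hS hS' ht ht1 htz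
  have hα' := h.alpha_all ht ht1 hα hs hs1
  -- conjugate inside `C(s)`
  set C := centralizer ({s} : Set G) with hC
  have hzC : z ∈ C := mem_centralizer_singleton_iff.2 hsz.symm
  have hzC' : z' ∈ C := mem_centralizer_singleton_iff.2 hsz'.symm
  have hsqC : ¬ p ^ 2 ∣ Nat.card C := fun h' => hsq (h'.trans (card_subgroup_dvd_card C))
  obtain ⟨⟨g, hgC⟩, hg⟩ := exists_conj_zpowers (G := C) (a := ⟨z, hzC⟩) (b := ⟨z', hzC'⟩)
    (by rw [← Subgroup.orderOf_coe]; exact hz) (by rw [← Subgroup.orderOf_coe]; exact hz') hsqC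
  have hg2 : zpowers (g * z * g⁻¹) = zpowers z' := by
    have := congrArg (Subgroup.map C.subtype) hg
    rw [MonoidHom.map_zpowers, MonoidHom.map_zpowers] at this
    exact this
  -- two Sylow subgroups of `Y`
  set Y := C ⊓ normalizer (zpowers z' : Set G) with hY
  have hSY : (S : Subgroup G) ≤ Y := le_inf (h.le_cent hs) hS'
  have hSY' : ((g • S : Sylow 2 G) : Subgroup G) ≤ Y := by
    rw [Sylow.coe_subgroup_smul]
    intro x hx
    rw [Subgroup.mem_pointwise_smul_iff_inv_smul_mem, ← map_inv, MulAut.smul_def,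
      MulAut.conj_apply, inv_inv] at hx
    have e : x = g * (g⁻¹ * x * g) * g⁻¹ := by group
    refine ⟨?_, ?_⟩
    · rw [e]
      exact C.mul_mem (C.mul_mem hgC (h.le_cent hs hx)) (C.inv_mem hgC)
    · change x ∈ normalizer (zpowers z' : Set G)
      rw [← hg2, mem_normalizer_iff]
      intro y
      have h1 := mem_normalizer_iff.1 (hS hx) (g⁻¹ * y * g)
      have h2 : ∀ w : G, w ∈ zpowers (g * z * g⁻¹) ↔ g⁻¹ * w * g ∈ zpowers z := by
        intro w
        rw [mem_zpowers_iff, mem_zpowers_iff]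
        apply exists_congr
        intro k
        rw [conj_zpow]
        constructor
        · intro h'; rw [← h']; group
        · intro h'; rw [h']; group
      rw [h2, h2, h1]
      rw [show g⁻¹ * x * g * (g⁻¹ * y * g) * (g⁻¹ * x * g)⁻¹ = g⁻¹ * (x * y * x⁻¹) * g by group]
  obtain ⟨⟨y, hyY⟩, hy⟩ := MulAction.exists_smul_eq Y ((g • S : Sylow 2 G).subtype hSY')
    (S.subtype hSY)
  have hyN : y * g ∈ normalizer ((S : Subgroup G) : Set G) := by
    have h1 : ∀ x : Y, x ∈ ((⟨y, hyY⟩ : Y) • ((g • S : Sylow 2 G).subtype hSY') : Sylow 2 Y) ↔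
        x ∈ S.subtype hSY := by
      intro x
      rw [hy]
    have key : ∀ x ∈ (S : Subgroup G), (y * g) * x * (y * g)⁻¹ ∈ (S : Subgroup G) := by
      intro x hx
      have hgx : g * x * g⁻¹ ∈ ((g • S : Sylow 2 G) : Subgroup G) := by
        rw [Sylow.coe_subgroup_smul, Subgroup.mem_pointwise_smul_iff_inv_smul_mem, ← map_inv,
          MulAut.smul_def, MulAut.conj_apply, inv_inv]
        rwa [show g⁻¹ * (g * x * g⁻¹) * g = x by group]
      have h2 := (h1 ((⟨y, hyY⟩ : Y) * ⟨g * x * g⁻¹, hSY' hgx⟩ * (⟨y, hyY⟩ : Y)⁻¹)).1 (by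
        change _ ∈ (((⟨y, hyY⟩ : Y) • ((g • S : Sylow 2 G).subtype hSY') : Sylow 2 Y) : Subgroup Y)
        rw [Sylow.coe_subgroup_smul, Subgroup.mem_pointwise_smul_iff_inv_smul_mem, ← map_inv,
          MulAut.smul_def, MulAut.conj_apply, inv_inv]
        rw [show (⟨y, hyY⟩ : Y)⁻¹ * ((⟨y, hyY⟩ : Y) * ⟨g * x * g⁻¹, hSY' hgx⟩ * (⟨y, hyY⟩ : Y)⁻¹) *
          (⟨y, hyY⟩ : Y) = ⟨g * x * g⁻¹, hSY' hgx⟩ by group]
        exact hgx)
      have h3 : y * (g * x * g⁻¹) * y⁻¹ ∈ (S : Subgroup G) := h2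
      rwa [show y * g * x * (y * g)⁻¹ = y * (g * x * g⁻¹) * y⁻¹ by group]
    rw [mem_normalizer_iff_map_conj_eq]
    apply Subgroup.eq_of_le_of_card_ge
    · rintro _ ⟨x, hx, rfl⟩
      exact key x hx
    · rw [Subgroup.card_map_of_injective (MulAut.conj (y * g)).injective]
  have hyS : y * g ∈ (S : Subgroup G) := by
    apply hα' _ hyN
    have h1 := mem_centralizer_singleton_iff.1 hyY.1
    have h2 := mem_centralizer_singleton_iff.1 hgC
    calc y * g * s = y * (g * s) := by group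
      _ = (y * s) * g := by rw [h2]; group
      _ = s * (y * g) := by rw [h1]; group
  have h1 : (zpowers z).map (MulAut.conj (y * g)).toMonoidHom = zpowers z :=
    mem_normalizer_iff_map_conj_eq.1 (hS hyS)
  have h2 : (zpowers z').map (MulAut.conj y).toMonoidHom = zpowers z' :=
    mem_normalizer_iff_map_conj_eq.1 hyY.2
  rw [← h1, ← h2, ← hg2, MonoidHom.map_zpowers, MonoidHom.map_zpowers]
  congr 1
  change y * g * z * (y * g)⁻¹ = y * (g * z * g⁻¹) * y⁻¹
  group

/-- **Case `(α)`**: `|C(t)| = 8`. -/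
theorem alpha_card {t : G} (ht : t ∈ (S : Subgroup G)) (ht1 : t ≠ 1)
    (hα : ∀ n ∈ normalizer ((S : Subgroup G) : Set G), n * t = t * n → n ∈ (S : Subgroup G)) :
    Nat.card (centralizer ({t} : Set G)) = 8 := by
  have hsim := h.simple
  set C := centralizer ({t} : Set G) with hC
  obtain ⟨k, hk⟩ := card_dvd_of_le (h.le_cent ht)
  rw [h.card, ← hC] at hk
  by_contra hne
  have hk1 : k ≠ 1 := by
    rintro rfl
    exact hne hk
  obtain ⟨p, hp, hpk⟩ := Nat.exists_prime_and_dvd hk1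
  have hpF : Fact p.Prime := ⟨hp⟩
  have hX8 : 8 * k ∣ Nat.card G := by rw [← hk]; exact card_subgroup_dvd_card C
  have hp2 : p ≠ 2 := by
    rintro rfl
    apply h.not_sixteen'
    exact (Dvd.dvd.trans (by obtain ⟨c, rfl⟩ := hpk; exact ⟨c, by ring⟩) hX8)
  have hpC : p ∣ Nat.card C := by rw [hk]; exact hpk.trans (Dvd.intro_left 8 rfl)
  have hsqd : ¬ p ^ 2 ∣ Nat.card G := not_sq_dvd h.dvd hp hp2
  have hsqC : ¬ p ^ 2 ∣ Nat.card C := fun h' => hsqd (h'.trans (card_subgroup_dvd_card C))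
  obtain ⟨z, hz⟩ := exists_prime_orderOf_dvd_card' p hpC
  -- the retraction of `C` onto `S`
  have hle : normalizer (S.subtype (h.le_cent ht) : Set C) ≤
      centralizer (S.subtype (h.le_cent ht) : Set C) := by
    have e : (S.subtype (h.le_cent ht) : Subgroup C) = (S : Subgroup G).subgroupOf C := rfl
    intro n hn
    have hn1 : n ∈ normalizer (((S : Subgroup G).subgroupOf C : Subgroup C) : Set C) := hn
    rw [← subgroupOf_normalizer_eq (h.le_cent ht), mem_subgroupOf] at hn1
    have hnS := hα n hn1 (mem_centralizer_singleton_iff.1 n.2)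
    rw [mem_centralizer_iff]
    intro x hx
    have hxS : (x : G) ∈ (S : Subgroup G) := hx
    exact Subtype.ext (h.comm hxS hnS)
  obtain ⟨π, -, hreg, -, hidx, -⟩ := Cfsg.Agent.H74.exists_retract (S.subtype (h.le_cent ht)) hle
  have hcS : Nat.card (S.subtype (h.le_cent ht) : Subgroup C) = 8 := by
    rw [← h.card]
    exact Nat.card_congr (Subgroup.subgroupOfEquivOfLe (h.le_cent ht)).toEquiv
  rw [hcS] at hidx
  have hzK : z ∈ π.ker := by
    rw [MonoidHom.mem_ker]
    apply hreg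
    rw [hz]
    intro h'
    exact hp2 ((Nat.prime_dvd_prime_iff_eq Nat.prime_two hp).1 h').symm
  have hle2 : (sylZ hz hsqC : Subgroup C) ≤ π.ker := by
    change zpowers z ≤ π.ker
    rw [zpowers_le]; exact hzK
  have h8 := card_quot_mul_dvd (N := π.ker) (sylZ hz hsqC) hle2
  rw [hidx] at h8
  have h8' : 2 ^ 3 ∣ Nat.card (normalizer (zpowers z : Set C)) := (Dvd.intro _ rfl).trans h8
  obtain ⟨T, hT⟩ := Sylow.exists_subgroup_card_pow_prime 2 h8'
  -- as a Sylow subgroup of `C`
  have hfac : (Nat.card C).factorization 2 = 3 := by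
    have h1 := (S.subtype (h.le_cent ht)).card_eq_multiplicity
    rw [hcS] at h1
    have h2 : (2 : ℕ) ^ 3 = 2 ^ (Nat.card C).factorization 2 := by rw [← h1]; norm_num
    exact (Nat.pow_right_injective le_rfl h2).symm
  set T1 : Subgroup C := T.map (normalizer (zpowers z : Set C)).subtype with hT1
  have hT1c : Nat.card T1 = 2 ^ (Nat.card C).factorization 2 := by
    rw [hfac, hT1, Subgroup.card_map_of_injective (subtype_injective _), hT]
  obtain ⟨c, hc⟩ := MulAction.exists_smul_eq C (Sylow.ofCard T1 hT1c) (S.subtype (h.le_cent ht))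
  -- the conjugate of `z`
  set w : C := c * z * c⁻¹ with hw
  have hwo : orderOf w = p := by
    rw [hw, ← hz]
    exact (orderOf_injective (MulAut.conj c).toMonoidHom (MulAut.conj c).injective z)
  have hSw : (S : Subgroup G) ≤ normalizer (zpowers (w : G) : Set G) := by
    intro x hx
    have hxC : x ∈ C := h.le_cent ht hx
    have h1 : (⟨x, hxC⟩ : C) ∈ (c • Sylow.ofCard T1 hT1c : Sylow 2 C) := by
      rw [hc]; exact hx
    have h1' : (⟨x, hxC⟩ : C) ∈ ((c • Sylow.ofCard T1 hT1c : Sylow 2 C) : Subgroup C) := h1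
    rw [Sylow.coe_subgroup_smul, Subgroup.mem_pointwise_smul_iff_inv_smul_mem, ← map_inv,
      MulAut.smul_def, MulAut.conj_apply, inv_inv] at h1'
    have h2 : c⁻¹ * ⟨x, hxC⟩ * c ∈ T1 := h1'
    have h3 : c⁻¹ * ⟨x, hxC⟩ * c ∈ normalizer (zpowers z : Set C) := by
      obtain ⟨y, -, hy⟩ := h2
      rw [← hy]
      exact y.2
    have h4 : (⟨x, hxC⟩ : C) ∈ normalizer (zpowers w : Set C) := by
      rw [mem_normalizer_iff]
      intro y
      have h5 := mem_normalizer_iff.1 h3 (c⁻¹ * y * c)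
      have h6 : ∀ v : C, v ∈ zpowers w ↔ c⁻¹ * v * c ∈ zpowers z := by
        intro v
        rw [mem_zpowers_iff, mem_zpowers_iff]
        apply exists_congr
        intro j
        rw [hw, conj_zpow]
        constructor
        · intro h'; rw [← h']; group
        · intro h'; rw [h']; group
      rw [h6, h6, h5]
      rw [show c⁻¹ * ⟨x, hxC⟩ * c * (c⁻¹ * y * c) * (c⁻¹ * ⟨x, hxC⟩ * c)⁻¹ =
        c⁻¹ * (⟨x, hxC⟩ * y * ⟨x, hxC⟩⁻¹) * c by group]
    have h7 := le_normalizer_map (H := zpowers w) C.subtype ⟨_, h4, rfl⟩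
    rw [MonoidHom.map_zpowers] at h7
    exact h7
  have hwo' : orderOf (w : G) = p := by rw [Subgroup.orderOf_coe]; exact hwo
  have htw : t * w = w * t := (mem_centralizer_singleton_iff.1 w.2).symm
  -- all of `S` centralizes `w`
  have hall : ∀ s ∈ (S : Subgroup G), s * w = w * s := by
    intro s hs
    by_cases hs1 : s = 1
    · rw [hs1, one_mul, mul_one]
    obtain ⟨n, hn, rfl⟩ := h.exists_conj ht ht1 hs hs1
    have hn' : n⁻¹ ∈ normalizer ((S : Subgroup G) : Set G) := inv_mem hn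
    have ho : orderOf (n⁻¹ * (w : G) * n) = p := by
      rw [← hwo']
      have := orderOf_injective (MulAut.conj n⁻¹).toMonoidHom (MulAut.conj n⁻¹).injective (w : G)
      rw [← this]
      congr 1
      change n⁻¹ * (w : G) * n = n⁻¹ * (w : G) * (n⁻¹)⁻¹
      rw [inv_inv]
    have hSn : (S : Subgroup G) ≤ normalizer (zpowers (n⁻¹ * (w : G) * n) : Set G) := by
      intro x hx
      have hx1 : n * x * n⁻¹ ∈ (S : Subgroup G) := (mem_normalizer_iff.1 hn x).1 hx
      have hx2 := hSw hx1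
      rw [mem_normalizer_iff]
      intro y
      have h5 := mem_normalizer_iff.1 hx2 (n * y * n⁻¹)
      have h6 : ∀ v : G, v ∈ zpowers (n⁻¹ * (w : G) * n) ↔ n * v * n⁻¹ ∈ zpowers (w : G) := by
        intro v
        rw [mem_zpowers_iff, mem_zpowers_iff]
        apply exists_congr
        intro j
        have e : (n⁻¹ * (w : G) * n) ^ j = n⁻¹ * (w : G) ^ j * n := by
          have := conj_zpow (a := n⁻¹) (b := (w : G)) (i := j)
          rw [inv_inv] at this
          exact this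
        rw [e]
        constructor
        · intro h'; rw [← h']; group
        · intro h'; rw [h']; group
      rw [h6, h6, h5]
      rw [show n * x * n⁻¹ * (n * y * n⁻¹) * (n * x * n⁻¹)⁻¹ = n * (x * y * x⁻¹) * n⁻¹ by group]
    have hpow := h.alpha_inv ht ht1 hα hsqd hwo' ho hSw hSn htw
    have hmem : n⁻¹ * (w : G) * n ∈ zpowers (w : G) := by rw [hpow]; exact mem_zpowers _
    obtain ⟨j, hj⟩ := hmem
    have hj' : (w : G) ^ j = n⁻¹ * (w : G) * n := hj
    have hcm : t * (n⁻¹ * (w : G) * n) = (n⁻¹ * (w : G) * n) * t := by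
      rw [← hj']
      exact (show Commute t (w : G) from htw).zpow_right j
    calc n * t * n⁻¹ * (w : G) = n * (t * (n⁻¹ * (w : G) * n)) * n⁻¹ := by group
      _ = n * ((n⁻¹ * (w : G) * n) * t) * n⁻¹ := by rw [hcm]
      _ = (w : G) * (n * t * n⁻¹) := by group
  have hwS : (w : G) ∈ (S : Subgroup G) := by
    rw [← h.cent_eq, mem_centralizer_iff]
    exact fun s hs => hall s hs
  have h2 := h.invol _ hwS
  have h3 : orderOf (w : G) ∣ 2 := orderOf_dvd_of_pow_eq_one (by rw [pow_two]; exact h2)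
  rw [hwo'] at h3
  exact hp2 ((Nat.prime_dvd_prime_iff_eq hp Nat.prime_two).1 h3)

end E8

end Cfsg.Agent.OrdJ
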