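import Cfsg.Agent.OrdJ.Num
import Cfsg.Agent.H74.FourNu
import Cfsg.Agent.Glaub.PGroup

/-! Groups of order `4 g₀`, `g₀ ∣ 21945`, without normal `2`-complement: indices of the
centralizers of a Sylow `2`-subgroup and an involution. -/

set_option autoImplicit false

namespace Cfsg.Agent.OrdJ

open Subgroup Cfsg Cfsg.Agent.CharBase

variable {Q : Type*} [Group Q] [Finite Q]

theorem odd_of_mod {x : ℕ} {e : ℤ} (he : e = 1 ∨ e = -1) (h : (4 : ℤ) ∣ (x : ℤ) - e) : Odd x := by
  rw [Nat.odd_iff]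
  rcases he with rfl | rfl <;> omega

theorem four_index {g₀ : ℕ} (hg : g₀ ∣ 21945) (hQ : Nat.card Q = 4 * g₀)
    (hnc : ¬ ∃ N : Subgroup Q, N.Normal ∧ Nat.card N = g₀) (P : Sylow 2 Q) {J : Q}
    (hJ : J ∈ (P : Subgroup Q)) (hJ2 : orderOf J = 2) :
    ((centralizer ((P : Subgroup Q) : Set Q)).index = 3 ∧ (centralizer ({J} : Set Q)).index = 3) ∨
    ((centralizer ((P : Subgroup Q) : Set Q)).index = 15 ∧ (centralizer ({J} : Set Q)).index = 15) ∨
    ((centralizer ((P : Subgroup Q) : Set Q)).index = 165 ∧ (centralizer ({J} : Set Q)).index = 55) ∨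
    ((centralizer ((P : Subgroup Q) : Set Q)).index = 1155 ∧
      (centralizer ({J} : Set Q)).index = 231) := by
  have hg0 : g₀ ≠ 0 := by rintro rfl; simp at hg
  have hodd : Odd g₀ := Odd.of_dvd_nat (by decide) hg
  obtain ⟨M, hM⟩ := Cfsg.Agent.Glaub.exists_isPModular Nat.prime_two
  obtain ⟨hK, hone⟩ := H74.klein_of_no_complement g₀ hodd hQ hnc P
  obtain ⟨ζ₂, ζ₃, ζ₄, ε, hε, hn2, hn3, h23, h24, h34, hB, hval, hm2, hm3, hm4, -⟩ :=
    H4.kleinBlock hM hK hone
  obtain ⟨hv2, hv3, hv4⟩ := hval J hJ2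
  have hn4 : (ζ₄ : Q → ℂ) ≠ (fun _ => 1) := by
    intro h'
    rw [h'] at hv4
    norm_num at hv4
  obtain ⟨hrel, n, hn, hform⟩ := H74.four_relations hM hK hone hJ hJ2 (ε₁ := 1) (ε₂ := ε)
    (ε₃ := -1) hB ⟨hn2, hn3, hn4, h23, h24, h34⟩ ⟨Or.inl rfl, hε, Or.inr rfl⟩
    ⟨by rw [hv2]; simp, hv3, by rw [hv4]; simp⟩
  have hdpos : ∀ χ : IrrCharacter Q, 0 < charDegree (χ : Q → ℂ) :=
    fun χ => Cfsg.Agent.H79.irr_degree_pos χ
  have hx2 := hdpos ζ₂
  have hx3 := hdpos ζ₃
  have hx4 := hdpos ζ₄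
  have hdd : ∀ (χ : IrrCharacter Q), Odd (charDegree (χ : Q → ℂ)) →
      charDegree (χ : Q → ℂ) ∈ dv := by
    intro χ ho
    apply mem_dv
    have h1 : charDegree (χ : Q → ℂ) ∣ Nat.card Q := Cfsg.Agent.H79.irr_degree_dvd_card χ
    rw [hQ] at h1
    have h2 : Nat.Coprime (charDegree (χ : Q → ℂ)) 4 := by
      rw [show 4 = 2 ^ 2 by norm_num]
      exact Nat.Coprime.pow_right 2 (Nat.coprime_two_right.2 ho)
    exact (h2.dvd_of_dvd_mul_left h1).trans hg
  have hd2 := hdd ζ₂ (odd_of_mod (Or.inl rfl) hm2)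
  have hd3 := hdd ζ₃ (odd_of_mod hε hm3)
  have hd4 := hdd ζ₄ (odd_of_mod (Or.inr rfl) (by simpa using hm4))
  set x := charDegree (ζ₂ : Q → ℂ) with hx
  set y := charDegree (ζ₃ : Q → ℂ) with hy
  set w := charDegree (ζ₄ : Q → ℂ) with hw
  set cJ : ℕ := Nat.card (centralizer ({J} : Set Q)) with hcJ
  set cP : ℕ := Nat.card (centralizer ((P : Subgroup Q) : Set Q)) with hcP
  have hiJ : cJ * (centralizer ({J} : Set Q)).index = 4 * g₀ := by rw [← hQ]; exact card_mul_index _
  have hiP : cP * (centralizer ((P : Subgroup Q) : Set Q)).index = 4 * g₀ := by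
    rw [← hQ]; exact card_mul_index _
  have h4P : 4 ∣ cP := by
    have h1 : Nat.card (P : Subgroup Q) = 4 := hK.card_four
    rw [← h1]
    apply card_dvd_of_le
    intro a ha
    rw [mem_centralizer_iff]
    intro b hb
    exact H4.IsKleinFour.mul_comm' hK hb ha
  obtain ⟨k, hk⟩ := h4P
  set r := (centralizer ({J} : Set Q)).index with hr
  have hcP0 : 0 < cP := Nat.card_pos
  have hk0 : 0 < k := by
    rcases Nat.eq_zero_or_pos k with rfl | h'
    · omega
    · exact h'
  have hg1 : k * n * r = g₀ := by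
    have : 4 * (k * n * r) = 4 * g₀ := by
      rw [← hiJ, ← hn, hk]; ring
    omega
  have hidxP : (centralizer ((P : Subgroup Q) : Set Q)).index = n * r := by
    have : 4 * k * (centralizer ((P : Subgroup Q) : Set Q)).index = 4 * k * (n * r) := by
      rw [← hk, hiP, hk, ← hg1]; ring
    exact Nat.eq_of_mul_eq_mul_left (by positivity) this
  have hnr : n * r ∈ dv := by
    apply mem_dv
    refine Dvd.dvd.trans ⟨k, ?_⟩ hg
    rw [← hg1]; ring
  have hndv : n ∈ dv := by
    apply mem_dv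
    refine Dvd.dvd.trans ⟨k * r, ?_⟩ hg
    rw [← hg1]; ring
  have hrdv : r ∈ dv := by
    apply mem_dv
    refine Dvd.dvd.trans ⟨k * n, ?_⟩ hg
    rw [← hg1]; ring
  have hn0 : 0 < n := by
    rcases Nat.eq_zero_or_pos n with rfl | h'
    · rw [mul_zero, zero_mul] at hg1; exact absurd hg1.symm hg0
    · exact h'
  have hx0 : (0 : ℚ) < x := by exact_mod_cast hx2
  have hy0 : (0 : ℚ) < y := by exact_mod_cast hx3
  have hw0 : (0 : ℚ) < w := by exact_mod_cast hx4
  have hk0' : (0 : ℚ) < k := by exact_mod_cast hk0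
  have hn0' : (0 : ℚ) < n := by exact_mod_cast hn0
  -- the rational equation
  have hform2 : (r : ℚ) * (1 + 1 / x + ε / y + (-1) / w) = 8 * n * n := by
    rw [hQ, ← hg1, ← hn, hk] at hform
    push_cast at hform
    have h1 : (4 * k * n : ℚ) * (r * (1 + 1 / x + ε / y + (-1) / w)) =
        (4 * k * n) * (8 * n * n) := by
      linear_combination hform
    exact mul_left_cancel₀ (by positivity) h1
  rcases hε with rfl | rfl
  · -- signs 1, 1, -1
    have hdeg : x = y := H74.four_degrees hM hK hone hJ hJ2 hB ⟨hn2, hn3, hn4, h23, h24, h34⟩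
      ⟨hv2, by rw [hv3]; simp, hv4⟩
    rw [← hdeg] at hrel hform2
    have hq : w = 2 * x + 1 := by omega
    have hqx' : (w : ℚ) = 2 * x + 1 := by exact_mod_cast hq
    have e1 : (1 : ℚ) + 1 / x + ((1 : ℤ) : ℚ) / x + (-1) / w =
        ((w : ℚ) + 1) ^ 2 / (2 * w * x) := by
      push_cast
      field_simp
      rw [hqx']; ring
    rw [e1] at hform2
    have hform3 : (r : ℚ) * ((w : ℚ) + 1) ^ 2 = 8 * n * n * (2 * w * x) := by
      have h2 : (2 * w * x : ℚ) ≠ 0 := by positivity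
      field_simp at hform2
      linear_combination hform2
    have hform4 : r * (2 * x + 1 + 1) * (2 * x + 1 + 1) = 16 * n * n * ((2 * x + 1) * x) := by
      rw [hqx'] at hform3
      have : ((r * (2 * x + 1 + 1) * (2 * x + 1 + 1) : ℕ) : ℚ) =
          ((16 * n * n * ((2 * x + 1) * x) : ℕ) : ℚ) := by
        push_cast
        linear_combination hform3
      exact_mod_cast this
    have hxm : x % 4 = 1 := by omega
    rcases four_num x hd2 r hrdv n hndv hxm hform4 (by rw [← hq]; exact hd4) hnr with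
      ⟨h1, h2⟩ | ⟨h1, h2⟩
    · left; rw [hidxP, h1, h2]; norm_num
    · right; right; left; rw [hidxP, h1, h2]; norm_num
  · have hbc : 1 + x = y + w := by omega
    have hyn : (y : ℚ) ≠ 0 := hy0.ne'
    have hxn : (x : ℚ) ≠ 0 := hx0.ne'
    have hwn : (w : ℚ) ≠ 0 := hw0.ne'
    have hform4 : r * (x * y * w + y * w) = r * (x * w + x * y) + 8 * n * n * (x * y * w) := by
      have : ((r * (x * y * w + y * w) : ℕ) : ℚ) =
          ((r * (x * w + x * y) + 8 * n * n * (x * y * w) : ℕ) : ℚ) := by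
        push_cast at hform2 ⊢
        field_simp at hform2
        linear_combination hform2
      exact_mod_cast this
    have hy3 : y % 4 = 3 := by omega
    have hw3 : w % 4 = 3 := by omega
    rcases four_num' x hd2 y hd3 w hd4 hbc hy3 hw3 r hrdv n hndv hform4 hnr with
      ⟨h1, h2⟩ | ⟨h1, h2⟩
    · right; left; rw [hidxP, h1, h2]; norm_num
    · right; right; right; rw [hidxP, h1, h2]; norm_num

end Cfsg.Agent.OrdJ
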