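import Cfsg.Agent.OrdJ.Eight3
import Cfsg.Agent.OrdJ.FourV

/-! The case where `N(S) ∩ C(t) > S`. -/

set_option autoImplicit false

namespace Cfsg.Agent.OrdJ

open Subgroup Cfsg.Agent.H60

namespace E8

variable {G : Type*} [Group G] [Finite G] {S : Sylow 2 G} (h : E8 S)
include h

/-- commutators in `⟨t⟩` -/
theorem comm_of_mem {t s c : G} (ht : t ∈ (S : Subgroup G)) (ht1 : t ≠ 1)
    (hs : s * s = 1) (hst : s * t = t * s) (hct : c * t = t * c)
    (hc : c * s * c⁻¹ * s⁻¹ ∈ zpowers t) : c * s = s * c := by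
  have htt := h.invol t ht
  have h1 : c * s * c⁻¹ * s⁻¹ = 1 ∨ c * s * c⁻¹ * s⁻¹ = t := by
    obtain ⟨k, hk⟩ := hc
    have hk' : t ^ k = c * s * c⁻¹ * s⁻¹ := hk
    rw [← hk']
    rcases Int.even_or_odd' k with ⟨j, rfl | rfl⟩
    · left
      rw [zpow_mul, show t ^ (2 : ℤ) = 1 by rw [zpow_two, htt], one_zpow]
    · right
      rw [zpow_add_one, zpow_mul, show t ^ (2 : ℤ) = 1 by rw [zpow_two, htt], one_zpow, one_mul]
  rcases h1 with h1 | h1
  · calc c * s = (c * s * c⁻¹ * s⁻¹) * (s * c) := by group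
      _ = s * c := by rw [h1, one_mul]
  · exfalso
    apply ht1
    apply h.fix htt hs hst hct
    calc c * s * c⁻¹ = (c * s * c⁻¹ * s⁻¹) * s := by group
      _ = s * t := by rw [h1, hst]

theorem odd_part : ∃ u, u ∣ 21945 ∧ Nat.card G = 8 * u := by
  obtain ⟨u, hu⟩ := h.eight_dvd
  refine ⟨u, ?_, hu⟩
  have h1 := h.dvd
  rw [hu] at h1
  exact Nat.dvd_of_mul_dvd_mul_left (by norm_num : 0 < 8) (by simpa using h1)

/-- **Case `(β)`**. -/
theorem beta_card {t : G} (ht : t ∈ (S : Subgroup G)) (ht1 : t ≠ 1)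
    (hβ : ∃ n ∈ normalizer ((S : Subgroup G) : Set G), n * t = t * n ∧ n ∉ (S : Subgroup G))
    {J : G} (hJ : J ∈ (S : Subgroup G)) (hJ1 : J ≠ 1) (hJt : J ≠ t) :
    (Nat.card (centralizer ({t} : Set G)) = 24 ∧
      ((centralizer ({J} : Set G)).subgroupOf (centralizer ({t} : Set G))).index = 3) ∨
    (Nat.card (centralizer ({t} : Set G)) = 120 ∧
      ((centralizer ({J} : Set G)).subgroupOf (centralizer ({t} : Set G))).index = 15) ∨
    (Nat.card (centralizer ({t} : Set G)) = 1320 ∧
      ((centralizer ({J} : Set G)).subgroupOf (centralizer ({t} : Set G))).index = 55) ∨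
    (Nat.card (centralizer ({t} : Set G)) = 9240 ∧
      ((centralizer ({J} : Set G)).subgroupOf (centralizer ({t} : Set G))).index = 231) := by
  have htt := h.invol t ht
  set C := centralizer ({t} : Set G) with hC
  have hSC : (S : Subgroup G) ≤ C := h.le_cent ht
  have htC : t ∈ C := hSC ht
  -- the order of `C`
  obtain ⟨k, hk⟩ := card_dvd_of_le hSC
  rw [h.card] at hk
  have hku : k ∣ 21945 := by
    obtain ⟨u, hu, hGu⟩ := h.odd_part
    have h1 : 8 * k ∣ 8 * u := by rw [← hk, ← hGu]; exact card_subgroup_dvd_card C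
    exact (Nat.dvd_of_mul_dvd_mul_left (by norm_num) h1).trans hu
  set t' : C := ⟨t, htC⟩ with ht'
  have hcen : zpowers t' ≤ center C := by
    rw [zpowers_le, mem_center_iff]
    intro g
    exact Subtype.ext (mem_centralizer_singleton_iff.1 g.2)
  have hnor : (zpowers t').Normal := by
    refine ⟨fun n hn g => ?_⟩
    have h1 := mem_center_iff.1 (hcen hn) g
    rw [h1, mul_inv_cancel_right]
    exact hn
  have hot : orderOf t' = 2 := by
    rw [← Subgroup.orderOf_coe]; exact h.ne_one_order ht ht1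
  have hcZ : Nat.card (zpowers t') = 2 := by rw [Nat.card_zpowers, hot]
  have hcQ : Nat.card (C ⧸ zpowers t') = 4 * k := by
    have h1 := card_eq_card_quotient_mul_card_subgroup (zpowers t')
    rw [hcZ, hk] at h1
    omega
  have hsurj : Function.Surjective (QuotientGroup.mk' (zpowers t')) := QuotientGroup.mk'_surjective _
  set P : Sylow 2 (C ⧸ zpowers t') := (S.subtype hSC).mapSurjective hsurj with hP
  have hPmem : ∀ s : G, ∀ hs : s ∈ (S : Subgroup G),
      (QuotientGroup.mk' (zpowers t') ⟨s, hSC hs⟩) ∈ (P : Subgroup (C ⧸ zpowers t')) := by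
    intro s hs
    exact ⟨⟨s, hSC hs⟩, hs, rfl⟩
  -- membership in `⟨t'⟩`
  have hmemZ : ∀ x : C, x ∈ zpowers t' ↔ (x : G) ∈ zpowers t := by
    intro x
    constructor
    · rintro ⟨j, rfl⟩
      exact ⟨j, rfl⟩
    · rintro ⟨j, hj⟩
      exact ⟨j, Subtype.ext hj⟩
  have hcommZ : ∀ c : C, ∀ s : G, ∀ hs : s ∈ (S : Subgroup G),
      c * ⟨s, hSC hs⟩ * c⁻¹ * (⟨s, hSC hs⟩ : C)⁻¹ ∈ zpowers t' → (c : G) * s = s * c := by
    intro c s hs hmem
    rw [hmemZ] at hmem
    exact h.comm_of_mem ht ht1 (h.invol s hs) (h.comm hs ht)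
      (mem_centralizer_singleton_iff.1 c.2) hmem
  -- no normal `2`-complement
  have hnc : ¬ ∃ N : Subgroup (C ⧸ zpowers t'), N.Normal ∧ Nat.card N = k := by
    rintro ⟨M, hM, hcM⟩
    obtain ⟨n, hn, hnt, hnS⟩ := hβ
    apply hnS
    rw [← h.cent_eq, mem_centralizer_iff]
    intro s hs
    have hk0 : 0 < k := by
      rw [← hcM]; exact Nat.card_pos
    have hcard4 : Nat.card ((C ⧸ zpowers t') ⧸ M) = 2 ^ 2 := by
      have h1 := card_eq_card_quotient_mul_card_subgroup M
      rw [hcQ, hcM] at h1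
      have := Nat.eq_of_mul_eq_mul_right hk0 h1
      rw [← this]; norm_num
    have hF : Fact (Nat.Prime 2) := ⟨Nat.prime_two⟩
    have hab := (IsPGroup.isMulCommutative_of_card_eq_prime_sq hcard4).is_comm.comm
    have hnC : n ∈ C := mem_centralizer_singleton_iff.2 hnt
    have hns : n * s * n⁻¹ ∈ (S : Subgroup G) := (mem_normalizer_iff.1 hn s).1 hs
    set n' : C := ⟨n, hnC⟩
    set s' : C := ⟨s, hSC hs⟩
    set q : C ⧸ zpowers t' := QuotientGroup.mk' (zpowers t') (n' * s' * n'⁻¹ * s'⁻¹) with hq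
    have hqM : q ∈ M := by
      rw [← QuotientGroup.eq_one_iff (N := M)]
      change QuotientGroup.mk' M (QuotientGroup.mk' (zpowers t') (n' * s' * n'⁻¹ * s'⁻¹)) = 1
      simp only [map_mul, map_inv]
      rw [hab (QuotientGroup.mk' M (QuotientGroup.mk' (zpowers t') n'))
        (QuotientGroup.mk' M (QuotientGroup.mk' (zpowers t') s')), mul_inv_cancel_right,
        mul_inv_cancel]
    have hq2 : q * q = 1 := by
      rw [hq, ← map_mul]
      have : n' * s' * n'⁻¹ * s'⁻¹ * (n' * s' * n'⁻¹ * s'⁻¹) = 1 := by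
        apply Subtype.ext
        change n * s * n⁻¹ * s⁻¹ * (n * s * n⁻¹ * s⁻¹) = 1
        exact h.invol _ (mul_mem hns (inv_mem hs))
      rw [this, map_one]
    have hq1 : q = 1 := by
      have h1 : orderOf q ∣ 2 := orderOf_dvd_of_pow_eq_one (by rw [pow_two]; exact hq2)
      have h2 : orderOf q ∣ k := by rw [← hcM]; exact Subgroup.orderOf_dvd_natCard M hqM
      have hko : Odd k := Odd.of_dvd_nat (by decide) hku
      have h3 : orderOf q ∣ 1 := by
        have : Nat.Coprime 2 k := (Nat.coprime_two_left.2 hko)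
        rw [← this]
        exact Nat.dvd_gcd h1 h2
      exact orderOf_eq_one_iff.1 (Nat.dvd_one.1 h3)
    have hz : n' * s' * n'⁻¹ * s'⁻¹ ∈ zpowers t' := by
      rw [← QuotientGroup.eq_one_iff]
      exact hq1
    exact (hcommZ n' s hs hz).symm
  -- the involution
  set J' : C := ⟨J, hSC hJ⟩ with hJ'
  have hJq : orderOf (QuotientGroup.mk' (zpowers t') J') = 2 := by
    apply orderOf_eq_prime
    · rw [← map_pow, pow_two]
      have : J' * J' = 1 := Subtype.ext (h.invol J hJ)
      rw [this, map_one]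
    · intro h1
      have h2 : J' ∈ zpowers t' := by
        rw [← QuotientGroup.eq_one_iff]; exact h1
      rw [hmemZ] at h2
      have h3 : J * 1 * J⁻¹ * 1⁻¹ = 1 := by group
      obtain ⟨j, hj⟩ := h2
      have hj' : t ^ j = J := hj
      rcases Int.even_or_odd' j with ⟨i, rfl | rfl⟩
      · rw [zpow_mul, show t ^ (2 : ℤ) = 1 by rw [zpow_two, htt], one_zpow] at hj'
        exact hJ1 hj'.symm
      · rw [zpow_add_one, zpow_mul, show t ^ (2 : ℤ) = 1 by rw [zpow_two, htt], one_zpow,
          one_mul] at hj'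
        exact hJt hj'.symm
  have hJP : QuotientGroup.mk' (zpowers t') J' ∈ (P : Subgroup (C ⧸ zpowers t')) := hPmem J hJ
  have key := four_index hku hcQ hnc P hJP hJq
  -- pulling back the centralizers
  have hp1 : (centralizer ((P : Subgroup (C ⧸ zpowers t')) : Set (C ⧸ zpowers t'))).comap
      (QuotientGroup.mk' (zpowers t')) = (S : Subgroup G).subgroupOf C := by
    apply le_antisymm
    · intro c hc
      rw [mem_comap, mem_centralizer_iff] at hc
      rw [mem_subgroupOf, ← h.cent_eq, mem_centralizer_iff]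
      intro s hs
      symm
      apply hcommZ c s hs
      rw [← QuotientGroup.eq_one_iff]
      have h1 := hc _ (hPmem s hs)
      change QuotientGroup.mk' (zpowers t') (c * ⟨s, hSC hs⟩ * c⁻¹ * (⟨s, hSC hs⟩ : C)⁻¹) = 1
      simp only [map_mul, map_inv]
      rw [← h1, mul_inv_cancel_right, mul_inv_cancel]
    · intro c hc
      rw [mem_subgroupOf] at hc
      rw [mem_comap, mem_centralizer_iff]
      rintro _ ⟨s, hs, rfl⟩
      have hs' : (s : G) ∈ (S : Subgroup G) := hs
      have h1 : s * c = c * s := Subtype.ext (h.comm hs' hc)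
      change QuotientGroup.mk' (zpowers t') s * QuotientGroup.mk' (zpowers t') c =
        QuotientGroup.mk' (zpowers t') c * QuotientGroup.mk' (zpowers t') s
      rw [← map_mul, h1, map_mul]
  have hp2 : (centralizer ({QuotientGroup.mk' (zpowers t') J'} : Set (C ⧸ zpowers t'))).comap
      (QuotientGroup.mk' (zpowers t')) = (centralizer ({J} : Set G)).subgroupOf C := by
    apply le_antisymm
    · intro c hc
      rw [mem_comap, mem_centralizer_singleton_iff] at hc
      rw [mem_subgroupOf, mem_centralizer_singleton_iff]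
      apply hcommZ c J hJ
      rw [← QuotientGroup.eq_one_iff]
      change QuotientGroup.mk' (zpowers t') (c * J' * c⁻¹ * J'⁻¹) = 1
      simp only [map_mul, map_inv]
      rw [hc, mul_inv_cancel_right, mul_inv_cancel]
    · intro c hc
      rw [mem_subgroupOf, mem_centralizer_singleton_iff] at hc
      rw [mem_comap, mem_centralizer_singleton_iff, ← map_mul, ← map_mul]
      congr 1
      exact Subtype.ext hc
  have hi1 : (centralizer ((P : Subgroup (C ⧸ zpowers t')) : Set (C ⧸ zpowers t'))).index = k := by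
    rw [← index_comap_of_surjective _ hsurj, hp1]
    have h1 := card_mul_index ((S : Subgroup G).subgroupOf C)
    have h2 : Nat.card ((S : Subgroup G).subgroupOf C) = 8 := by
      rw [← h.card]
      exact Nat.card_congr (Subgroup.subgroupOfEquivOfLe hSC).toEquiv
    rw [h2, hk] at h1
    omega
  have hi2 : (centralizer ({QuotientGroup.mk' (zpowers t') J'} : Set (C ⧸ zpowers t'))).index =
      ((centralizer ({J} : Set G)).subgroupOf C).index := by
    rw [← index_comap_of_surjective _ hsurj, hp2]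
  rw [hi1, hi2] at key
  rw [hk]
  rcases key with ⟨h1, h2⟩ | ⟨h1, h2⟩ | ⟨h1, h2⟩ | ⟨h1, h2⟩
  · left; exact ⟨by rw [h1], h2⟩
  · right; left; exact ⟨by rw [h1], h2⟩
  · right; right; left; exact ⟨by rw [h1], h2⟩
  · right; right; right; exact ⟨by rw [h1], h2⟩

/-- The possible orders of the centralizer of an involution. -/
theorem card_cases {t : G} (ht : t ∈ (S : Subgroup G)) (ht1 : t ≠ 1) :
    Nat.card (centralizer ({t} : Set G)) = 8 ∨ Nat.card (centralizer ({t} : Set G)) = 24 ∨
    Nat.card (centralizer ({t} : Set G)) = 120 ∨ Nat.card (centralizer ({t} : Set G)) = 1320 ∨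
    Nat.card (centralizer ({t} : Set G)) = 9240 := by
  classical
  by_cases hα : ∀ n ∈ normalizer ((S : Subgroup G) : Set G), n * t = t * n → n ∈ (S : Subgroup G)
  · exact Or.inl (h.alpha_card ht ht1 hα)
  · right
    push Not at hα
    obtain ⟨n, hn, hnt, hnS⟩ := hα
    obtain ⟨J, hJ, hJ'⟩ := h.exists_not_mem {1, t} ((Finset.card_le_two).trans (by norm_num))
    simp only [Finset.mem_insert, Finset.mem_singleton, not_or] at hJ'
    rcases h.beta_card ht ht1 ⟨n, hn, hnt, hnS⟩ hJ hJ'.1 hJ'.2 with h1 | h1 | h1 | h1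
    · exact Or.inl h1.1
    · exact Or.inr (Or.inl h1.1)
    · exact Or.inr (Or.inr (Or.inl h1.1))
    · exact Or.inr (Or.inr (Or.inr h1.1))

end E8

end Cfsg.Agent.OrdJ
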