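import Cfsg.Agent.OrdJ.Eight4
import Cfsg.Agent.H60.RecogA5
import Cfsg.Agent.JU.Iso

/-! `|C(t)| = 120`: then `C(t) ≅ C2 × A5`. -/

set_option autoImplicit false

namespace Cfsg.Agent.OrdJ

open Subgroup Cfsg.Agent.H60

section

variable {G : Type*} [Group G]

theorem ncard_cOrb_eq (N : Subgroup G) (t : G) :
    (cOrb N t).ncard = ((centralizer ({t} : Set G)).subgroupOf N).index := by
  let _ := cAct N
  have h1 : cOrb N t = MulAction.orbit N t := by
    ext x
    constructor
    · rintro ⟨n, hn, rfl⟩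
      exact ⟨⟨n, hn⟩, rfl⟩
    · rintro ⟨n, rfl⟩
      exact ⟨n, n.2, rfl⟩
  rw [h1, ← MulAction.index_stabilizer]
  congr 1
  ext n
  rw [MulAction.mem_stabilizer_iff, mem_subgroupOf, mem_centralizer_singleton_iff]
  change (n : G) * t * (n : G)⁻¹ = t ↔ _
  exact mul_inv_eq_iff_eq_mul

theorem cOrb_disj {N : Subgroup G} {a b : G} (hab : b ∉ cOrb N a) :
    Disjoint (cOrb N a) (cOrb N b) := by
  rw [Set.disjoint_left]
  rintro x ⟨n, hn, rfl⟩ ⟨m, hm, e⟩
  apply hab
  refine ⟨m⁻¹ * n, N.mul_mem (N.inv_mem hm) hn, ?_⟩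
  calc m⁻¹ * n * a * (m⁻¹ * n)⁻¹ = m⁻¹ * (n * a * n⁻¹) * m := by group
    _ = m⁻¹ * (m * b * m⁻¹) * m := by rw [e]
    _ = b := by group

end

namespace E8

variable {G : Type*} [Group G] [Finite G] {S : Sylow 2 G} (h : E8 S)
include h

theorem index_fifteen {t : G} (ht : t ∈ (S : Subgroup G)) (ht1 : t ≠ 1)
    (hc : Nat.card (centralizer ({t} : Set G)) = 120)
    {J : G} (hJ : J ∈ (S : Subgroup G)) (hJ1 : J ≠ 1) (hJt : J ≠ t) :
    ((centralizer ({J} : Set G)).subgroupOf (centralizer ({t} : Set G))).index = 15 := by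
  by_cases hα : ∀ n ∈ normalizer ((S : Subgroup G) : Set G), n * t = t * n → n ∈ (S : Subgroup G)
  · have := h.alpha_card ht ht1 hα
    omega
  · push Not at hα
    obtain ⟨n, hn, hnt, hnS⟩ := hα
    rcases h.beta_card ht ht1 ⟨n, hn, hnt, hnS⟩ hJ hJ1 hJt with h1 | h1 | h1 | h1
    · omega
    · exact h1.2
    · omega
    · omega

theorem exists_beta {t : G} (ht : t ∈ (S : Subgroup G)) (ht1 : t ≠ 1)
    (hc : Nat.card (centralizer ({t} : Set G)) = 120) :
    ∃ n ∈ normalizer ((S : Subgroup G) : Set G), n * t = t * n ∧ n ∉ (S : Subgroup G) := by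
  by_contra hcon
  push Not at hcon
  have := h.alpha_card ht ht1 hcon
  omega

/-- elements of order five do not normalize `S` -/
theorem not_five {t : G} (ht : t ∈ (S : Subgroup G)) (ht1 : t ≠ 1)
    (hc : Nat.card (centralizer ({t} : Set G)) = 120) {x : G} (hx : orderOf x = 5)
    (hxS : x ∈ normalizer ((S : Subgroup G) : Set G)) (hxt : x * t = t * x) : False := by
  classical
  set C := centralizer ({t} : Set G) with hC
  -- orbits of `⟨x⟩` have length `5`
  have hle : zpowers x ≤ normalizer ((S : Subgroup G) : Set G) := by rw [zpowers_le]; exact hxS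
  have hlt : ∀ n ∈ zpowers x, n * t * n⁻¹ = t := by
    rintro _ ⟨j, rfl⟩
    have : Commute x t := hxt
    change x ^ j * t * (x ^ j)⁻¹ = t
    rw [(this.zpow_left j).eq, mul_inv_cancel_right]
  have hsub : ∀ J ∈ (S : Subgroup G), J ≠ 1 → J ≠ t →
      cOrb (zpowers x) J ⊆ ((S : Subgroup G) : Set G) \ {1, t} := by
    rintro J hJ hJ1 hJt _ ⟨n, hn, rfl⟩
    refine ⟨(mem_normalizer_iff.1 (hle hn) J).1 hJ, ?_⟩
    rw [Set.mem_insert_iff, Set.mem_singleton_iff, not_or, conj_eq_one_iff]
    refine ⟨hJ1, ?_⟩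
    intro e
    apply hJt
    have h1 := hlt n⁻¹ (inv_mem hn)
    rw [inv_inv] at h1
    calc J = n⁻¹ * (n * J * n⁻¹) * n := by group
      _ = t := by rw [e, h1]
  have hfive : ∀ J ∈ (S : Subgroup G), J ≠ 1 → J ≠ t → (cOrb (zpowers x) J).ncard = 5 := by
    intro J hJ hJ1 hJt
    have h1 := ncard_cOrb (zpowers x) ⊥ J (fun m hm => by
      rw [mem_bot] at hm; rw [hm]; group)
    have h2 : ((⊥ : Subgroup G).subgroupOf (zpowers x)).index = 5 := by
      rw [bot_subgroupOf, index_bot, Nat.card_zpowers, hx]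
    rw [h2] at h1
    rcases (Nat.dvd_prime (by norm_num)).1 h1 with h3 | h3
    · exfalso
      rw [Set.ncard_eq_one] at h3
      obtain ⟨a, ha⟩ := h3
      have e1 : J ∈ cOrb (zpowers x) J := ⟨1, one_mem _, by group⟩
      have e2 : x * J * x⁻¹ ∈ cOrb (zpowers x) J := ⟨x, mem_zpowers x, rfl⟩
      rw [ha, Set.mem_singleton_iff] at e1 e2
      rw [← e1] at e2
      have hxJ : x ∈ centralizer ({J} : Set G) := by
        rw [mem_centralizer_singleton_iff]
        exact mul_inv_eq_iff_eq_mul.1 e2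
      have h15 := h.index_fifteen ht ht1 hc hJ hJ1 hJt
      have hcm := card_mul_index ((centralizer ({J} : Set G)).subgroupOf C)
      rw [h15, hc] at hcm
      have hxC : x ∈ C := mem_centralizer_singleton_iff.2 hxt
      have hd : orderOf (⟨x, hxC⟩ : C) ∣ Nat.card ((centralizer ({J} : Set G)).subgroupOf C) :=
        Subgroup.orderOf_dvd_natCard _ (mem_subgroupOf.2 hxJ)
      rw [Subgroup.orderOf_mk, hx] at hd
      omega
    · exact h3
  have hn6 : (((S : Subgroup G) : Set G) \ {1, t}).ncard = 6 := by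
    have h7 := h.ncard_S
    have e : ((S : Subgroup G) : Set G) \ {1, t} = (((S : Subgroup G) : Set G) \ {1}) \ {t} := by
      ext y
      simp only [Set.mem_sdiff, Set.mem_insert_iff, Set.mem_singleton_iff, not_or]
      tauto
    have hm : t ∈ ((S : Subgroup G) : Set G) \ {1} := ⟨ht, ht1⟩
    rw [e, Set.ncard_sdiff_singleton_of_mem hm, h7]
  obtain ⟨J, hJ, hJ'⟩ := h.exists_not_mem {1, t} ((Finset.card_le_two).trans (by norm_num))
  simp only [Finset.mem_insert, Finset.mem_singleton, not_or] at hJ'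
  have h5 := hfive J hJ hJ'.1 hJ'.2
  have hsubJ := hsub J hJ hJ'.1 hJ'.2
  have hne : cOrb (zpowers x) J ≠ ((S : Subgroup G) : Set G) \ {1, t} := by
    intro e
    rw [e, hn6] at h5
    omega
  obtain ⟨r, hr, hrn⟩ := Set.exists_of_ssubset (hsubJ.ssubset_of_ne hne)
  have hr1 : r ≠ 1 ∧ r ≠ t := by
    have := hr.2
    rw [Set.mem_insert_iff, Set.mem_singleton_iff, not_or] at this
    exact this
  have h5r := hfive r hr.1 hr1.1 hr1.2
  have hsubr := hsub r hr.1 hr1.1 hr1.2
  have hu := Set.ncard_union_eq (cOrb_disj hrn) (Set.toFinite _) (Set.toFinite _)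
  have hle2 := Set.ncard_le_ncard (Set.union_subset hsubJ hsubr) (Set.toFinite _)
  omega

/-- the structure of `C(t)` -/
theorem cent_iso {t : G} (ht : t ∈ (S : Subgroup G)) (ht1 : t ≠ 1)
    (hc : Nat.card (centralizer ({t} : Set G)) = 120) :
    Nonempty (centralizer ({t} : Set G) ≃* Multiplicative (ZMod 2) × alternatingGroup (Fin 5)) := by
  classical
  have h15' := fun J hJ hJ1 hJt => h.index_fifteen ht ht1 hc (J := J) hJ hJ1 hJt
  have hnf := fun x hx hxS hxt => h.not_five ht ht1 hc (x := x) hx hxS hxt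
  obtain ⟨n, hn, hnt, hnS⟩ := h.exists_beta ht ht1 hc
  set C := centralizer ({t} : Set G) with hC
  have hSC : (S : Subgroup G) ≤ C := h.le_cent ht
  set N := normalizer ((S : Subgroup G) : Set G) with hN
  have hSN : (S : Subgroup G) ≤ N := le_normalizer
  set B : Subgroup C := N.subgroupOf C with hB
  have h8S : Nat.card ((S : Subgroup G).subgroupOf C) = 8 := by
    rw [← h.card]
    exact Nat.card_congr (Subgroup.subgroupOfEquivOfLe hSC).toEquiv
  have hSB : (S : Subgroup G).subgroupOf C ≤ B := subgroupOf_mono C hSN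
  obtain ⟨m, hm⟩ := card_dvd_of_le hSB
  rw [h8S] at hm
  have hBi := card_mul_index B
  rw [hm, hc] at hBi
  have hm15 : m * B.index = 15 := by
    have : 8 * (m * B.index) = 8 * 15 := by rw [← mul_assoc, hBi]
    omega
  have hm5 : ¬ 5 ∣ m := by
    intro h5
    have hF : Fact (Nat.Prime 5) := ⟨by norm_num⟩
    have h5B : 5 ∣ Nat.card B := by rw [hm]; exact h5.trans (Dvd.intro_left 8 rfl)
    obtain ⟨⟨x, hx⟩, hxo⟩ := exists_prime_orderOf_dvd_card' 5 h5B
    rw [Subgroup.orderOf_mk] at hxo
    exact hnf (x : G) (by rw [Subgroup.orderOf_coe]; exact hxo) (mem_subgroupOf.1 hx)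
      (mem_centralizer_singleton_iff.1 x.2)
  have hm1 : m ≠ 1 := by
    rintro rfl
    have he : (S : Subgroup G).subgroupOf C = B := by
      apply Subgroup.eq_of_le_of_card_ge hSB
      rw [hm, h8S]
    apply hnS
    have hnC : n ∈ C := mem_centralizer_singleton_iff.2 hnt
    have : (⟨n, hnC⟩ : C) ∈ B := mem_subgroupOf.2 hn
    rw [← he, mem_subgroupOf] at this
    exact this
  have hidx : B.index = 5 := by
    have hmd : m ∣ 15 := ⟨_, hm15.symm⟩
    have hmle := Nat.le_of_dvd (by norm_num) hmd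
    interval_cases m <;> omega
  set t' : C := ⟨t, hSC ht⟩ with ht'
  have hcen : t' ∈ center C := by
    rw [mem_center_iff]
    intro g
    exact Subtype.ext (mem_centralizer_singleton_iff.1 g.2)
  have hot : orderOf t' = 2 := by
    rw [← Subgroup.orderOf_coe]; exact h.ne_one_order ht ht1
  -- the core
  have hcore : B.normalCore = zpowers t' := by
    apply le_antisymm
    · have hsmall : ∀ J : C, J ∈ B.normalCore → (J : G) ∈ (S : Subgroup G) →
          (J : G) = 1 ∨ (J : G) = t := by
        intro J hJM hJS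
        by_contra hcon
        rw [not_or] at hcon
        have h15 := h15' (J : G) hJS hcon.1 hcon.2
        have hsub : cOrb C (J : G) ⊆ ((S : Subgroup G) : Set G) := by
          rintro _ ⟨c, hcC, rfl⟩
          have h1 : (⟨c, hcC⟩ : C) * J * (⟨c, hcC⟩ : C)⁻¹ ∈ B.normalCore :=
            (inferInstance : B.normalCore.Normal).conj_mem J hJM _
          have h2 := B.normalCore_le h1
          rw [mem_subgroupOf] at h2
          apply Cfsg.Agent.H4.mem_sylow_of_mem_normalizer S (k := 1) _ h2
          have h3 := h.invol _ hJS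
          rw [pow_one, pow_two]
          change c * J * c⁻¹ * (c * J * c⁻¹) = 1
          calc c * J * c⁻¹ * (c * J * c⁻¹) = c * ((J : G) * J) * c⁻¹ := by group
            _ = 1 := by rw [h3]; group
        have h1 := Set.ncard_le_ncard hsub (Set.toFinite _)
        rw [ncard_cOrb_eq, h15] at h1
        have h2 : ((S : Subgroup G) : Set G).ncard = 8 := by
          rw [← Nat.card_coe_set_eq]
          exact h.card
        omega
      have hinZ : ∀ x : C, (x : G) = 1 ∨ (x : G) = t → x ∈ zpowers t' := by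
        rintro x (hx | hx)
        · have : x = 1 := Subtype.ext hx
          rw [this]; exact one_mem _
        · have : x = t' := Subtype.ext hx
          rw [this]; exact mem_zpowers _
      intro x hxM
      have hxN : (x : G) ∈ N := mem_subgroupOf.1 (B.normalCore_le hxM)
      have hxS : (x : G) ∈ (S : Subgroup G) := by
        rw [← h.cent_eq, mem_centralizer_iff]
        intro s hs
        symm
        apply h.comm_of_mem ht ht1 (h.invol s hs) (h.comm hs ht)
          (mem_centralizer_singleton_iff.1 x.2)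
        set s' : C := ⟨s, hSC hs⟩
        have h1 : x * s' * x⁻¹ * s'⁻¹ ∈ B.normalCore := by
          have h2 : s' * x⁻¹ * s'⁻¹ ∈ B.normalCore :=
            (inferInstance : B.normalCore.Normal).conj_mem _ (inv_mem hxM) _
          have h3 : x * s' * x⁻¹ * s'⁻¹ = x * (s' * x⁻¹ * s'⁻¹) := by group
          rw [h3]
          exact mul_mem hxM h2
        have h4 : ((x * s' * x⁻¹ * s'⁻¹ : C) : G) ∈ (S : Subgroup G) := by
          change (x : G) * s * (x : G)⁻¹ * s⁻¹ ∈ (S : Subgroup G)
          exact mul_mem ((mem_normalizer_iff.1 hxN s).1 hs) (inv_mem hs)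
        rcases hsmall _ h1 h4 with h5 | h5
        · change ((x * s' * x⁻¹ * s'⁻¹ : C) : G) ∈ zpowers t
          rw [h5]; exact one_mem _
        · change ((x * s' * x⁻¹ * s'⁻¹ : C) : G) ∈ zpowers t
          rw [h5]; exact mem_zpowers t
      exact hinZ x (hsmall x hxM hxS)
    · rw [zpowers_le]
      have hZn : (zpowers t').Normal := by
        refine ⟨fun y hy g => ?_⟩
        have h1 : y ∈ center C := (zpowers_le.2 hcen) hy
        rw [mem_center_iff.1 h1 g, mul_inv_cancel_right]
        exact hy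
      have hZB : zpowers t' ≤ B := by
        rw [zpowers_le, mem_subgroupOf]
        exact hSN ht
      exact (normal_le_normalCore.2 hZB) (mem_zpowers t')
  exact recog_C2A5 hc hot hcen hidx hcore (S.subtype hSC) ht
    (fun a ha b hb => Subtype.ext (h.comm ha hb))

/-- the order of a counterexample -/
theorem exists_emb {t : G} (ht : t ∈ (S : Subgroup G)) (ht1 : t ≠ 1)
    (hc : Nat.card (centralizer ({t} : Set G)) = 120) :
    Nonempty (Cfsg.Agent.JC.Emb G) := by
  obtain ⟨e⟩ := h.cent_iso ht ht1 hc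
  obtain ⟨E, -⟩ := Cfsg.Agent.JC.exists_emb t ht1 e
  exact ⟨E⟩

theorem exists_invol : ∃ t ∈ (S : Subgroup G), t ≠ 1 := by
  classical
  obtain ⟨t, ht, ht1⟩ := h.exists_not_mem {1} (by simp)
  exact ⟨t, ht, by simpa using ht1⟩

/-- the case `|G| = 175560` -/
theorem emb_of_card (hG : Nat.card G = 175560) : Nonempty (Cfsg.Agent.JC.Emb G) := by
  obtain ⟨t, ht, ht1⟩ := h.exists_invol
  apply h.exists_emb ht ht1
  have hf := h.frob ht ht1
  have hci := card_mul_index (centralizer ({t} : Set G))
  rw [hG] at hci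
  rcases h.card_cases ht ht1 with h1 | h1 | h1 | h1 | h1
  · rw [h1] at hci; omega
  · rw [h1] at hci; omega
  · exact h1
  · rw [h1] at hci; omega
  · rw [h1] at hci; omega

end E8

end Cfsg.Agent.OrdJ
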