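import Cfsg.Agent.OrdJ.Eight5
import Cfsg.Agent.OrdJ.Dih

/-! Simple groups of order `175560`. -/

set_option autoImplicit false

namespace Cfsg.Agent.OrdJ

open Subgroup

variable {G : Type*} [Group G] [Finite G]

theorem not_comm [IsSimpleGroup G] (hG : Nat.card G = 175560) : ¬ IsMulCommutative G := by
  intro h
  let _ : CommGroup G := { (inferInstance : Group G) with mul_comm := h.is_comm.comm }
  have h1 : (Nat.card G).Prime := IsSimpleGroup.prime_card
  rw [hG] at h1
  norm_num at h1

theorem card_sylow_eight (S : Sylow 2 G) (hG : Nat.card G = 175560) :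
    Nat.card (S : Subgroup G) = 8 := by
  have hF : Fact (Nat.Prime 2) := ⟨Nat.prime_two⟩
  rw [S.card_eq_multiplicity, hG, show 175560 = 2 ^ 3 * 21945 by norm_num,
    Nat.factorization_mul (by norm_num) (by norm_num), Finsupp.add_apply,
    Nat.prime_two.factorization_pow, Nat.factorization_eq_zero_of_not_dvd (by norm_num)]
  simp

theorem exists_emb [IsSimpleGroup G] (hG : Nat.card G = 175560) :
    Nonempty (Cfsg.Agent.JC.Emb G) := by
  have hnc := not_comm hG
  obtain ⟨S⟩ : Nonempty (Sylow 2 G) := inferInstance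
  rcases sylow_types hnc (by rw [hG]) S (card_sylow_eight S hG) with h | ⟨σ, τ, h⟩
  · exact h.emb_of_card hG
  · exact (h.card_ne hnc hG).elim

end Cfsg.Agent.OrdJ
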