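import Cfsg.Agent.OrdJ.Main

/-! No simple group of order properly dividing `175560` and divisible by `19`. -/

set_option autoImplicit false

namespace Cfsg.Agent.OrdJ

open Subgroup Cfsg.Agent.H60

section num

/-- divisors of `1155` -/
def dw : List ℕ := [1, 3, 5, 15, 7, 21, 35, 105, 11, 33, 55, 165, 77, 231, 385, 1155]

theorem mem_dw {x : ℕ} (h : x ∣ 1155) : x ∈ dw := by
  have h1 : x ∈ dv := mem_dv (h.trans (by norm_num))
  have key : ∀ y ∈ dv, y ∣ 1155 → y ∈ dw := by decide +kernel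
  exact key x h1 h

theorem num8 : ∀ u ∈ dw, 7 ∣ u → u ≠ 1155 → 8 ∣ 1 + 19 * u →
    ∀ i, i < 8 * u + 1 → i ≠ 1 → i % 19 = 1 → i ∣ 8 * u → i = 77 ∧ u = 77 := by
  decide +kernel

theorem num24 (u : ℕ) (hu : u ∈ dw) (h7 : 7 ∣ u) (hne : u ≠ 1155) (h3 : 3 ∣ u)
    (h8 : 8 ∣ 1 + 19 * (u / 3)) (i : ℕ) (hi : i < 8 * u + 1) (hi1 : i ≠ 1) (him : i % 19 = 1)
    (hiu : i ∣ 8 * u) : i = 77 ∧ u = 231 := by
  have key : ∀ u ∈ dw, (7 ∣ u ∧ u ≠ 1155 ∧ 3 ∣ u ∧ 8 ∣ 1 + 19 * (u / 3)) →
    ∀ i, i < 8 * u + 1 → (i ≠ 1 ∧ i % 19 = 1 ∧ i ∣ 8 * u) → i = 77 ∧ u = 231 := by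
    decide +kernel
  exact key u hu ⟨h7, hne, h3, h8⟩ i hi ⟨hi1, him, hiu⟩

theorem num231 : ∀ i, i < 232 → i ≠ 1 → i % 19 = 1 → i ∣ 231 → i = 77 := by
  decide +kernel

theorem num385 : ∀ i, i < 386 → i ≠ 1 → i % 19 = 1 → i ∣ 385 → i = 77 := by
  decide +kernel

end num

variable {G : Type*} [Group G] [Finite G]

/-- the data attached to an element of order `19` -/
theorem nineteen_data [IsSimpleGroup G] (hG : ¬ IsMulCommutative G) (hd : Nat.card G ∣ 175560)
    {z : G} (hz : orderOf z = 19) :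
    ∃ i e : ℕ, i = (normalizer (zpowers z : Set G)).index ∧ i ≠ 1 ∧ i % 19 = 1 ∧
      (e = 2 ∨ e = 3 ∨ e = 6) ∧
      Nat.card (normalizer (zpowers z : Set G)) = Nat.card (centralizer ({z} : Set G)) * e ∧
      Nat.card (centralizer ({z} : Set G)) * e * i = Nat.card G := by
  have hF : Fact (Nat.Prime 19) := ⟨by norm_num⟩
  have hsq : ¬ 19 ^ 2 ∣ Nat.card G := not_sq_dvd hd (by norm_num) (by norm_num)
  have hz1 : z ≠ 1 := by
    rintro rfl
    rw [orderOf_one] at hz
    omega
  have hcn := card_normalizer_eq z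
  have hci := card_mul_index (normalizer (zpowers z : Set G))
  have hr1 := ratio_ne_one hG hz hsq
  have hrd : ratio z ∣ 18 := ratio_dvd (p := 19) hz
  have hr9 : ¬ 9 ∣ ratio z := by
    intro h9
    have h1 : ratio z ∣ Nat.card G := by
      rw [← hci, hcn]
      exact (Dvd.intro_left _ rfl).trans (Dvd.intro _ rfl)
    exact not_sq_dvd hd (p := 3) (by norm_num) (by norm_num) (by
      norm_num; exact h9.trans h1)
  refine ⟨_, ratio z, rfl, index_ne_one hG hz1, ?_, ?_, hcn, by rw [← hcn, hci]⟩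
  · have := index_normalizer_modEq hz hsq
    exact this
  · have hle := Nat.le_of_dvd (by norm_num) hrd
    generalize ratio z = e at *
    interval_cases e <;> omega

theorem E8.nineteen {S : Sylow 2 G} (h : E8 S) (h19 : 19 ∣ Nat.card G) :
    Nat.card G = 175560 := by
  by_contra hne
  have hsim := h.simple
  have hF : Fact (Nat.Prime 19) := ⟨by norm_num⟩
  obtain ⟨z, hz⟩ := exists_prime_orderOf_dvd_card' 19 h19
  obtain ⟨i, e, hi, hi1, himod, he, hN, hGe⟩ := nineteen_data h.ncomm h.dvd hz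
  obtain ⟨u, hu, hGu⟩ := h.odd_part
  obtain ⟨u', rfl⟩ : 19 ∣ u := by
    rw [hGu] at h19
    exact (Nat.Coprime.dvd_of_dvd_mul_left (by norm_num) h19)
  have hu' : u' ∣ 1155 := by
    have : 19 * u' ∣ 19 * 1155 := hu
    exact Nat.dvd_of_mul_dvd_mul_left (by norm_num) this
  have hudw := mem_dw hu'
  have hu'ne : u' ≠ 1155 := by
    rintro rfl
    apply hne
    rw [hGu]
  have h7 : 7 ∣ u' := by
    have h1 := h.seven_dvd.trans ((index_dvd_card _).trans (card_subgroup_dvd_card
      (normalizer ((S : Subgroup G) : Set G))))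
    rw [hGu, ← mul_assoc] at h1
    exact (Nat.Coprime.dvd_of_dvd_mul_left (by norm_num) h1)
  obtain ⟨t, ht, ht1⟩ := h.exists_invol
  have hf := h.frob ht ht1
  have hci := card_mul_index (centralizer ({t} : Set G))
  rw [hGu] at hci
  set c := Nat.card (centralizer ({z} : Set G)) with hc
  -- elements of order `19` do not commute with involutions if `19 ∤ |C(t)|`
  have hodd : ¬ 19 ∣ Nat.card (centralizer ({t} : Set G)) → ¬ 2 ∣ c := by
    intro h1 h2
    apply h1
    obtain ⟨a, ha, hza⟩ := exists_of_prime_dvd_centralizer (z := z) Nat.prime_two h2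
    rw [hz] at hza
    obtain ⟨g, hg⟩ := isConj_iff.1 (h.one_class ht ht1 ha)
    rw [← hg, card_centralizer_conj]
    exact hza
  have h19c : 19 ∣ c := by
    rw [hc, ← hz]
    exact Subgroup.orderOf_dvd_natCard _ (mem_centralizer_self z)
  obtain ⟨v, hv⟩ := h19c
  have hevi : v * e * i = 8 * u' := by
    have : 19 * (v * e * i) = 19 * (8 * u') := by
      calc 19 * (v * e * i) = 19 * v * e * i := by ring
        _ = c * e * i := by rw [hv]
        _ = 8 * (19 * u') := by rw [hGe, hGu]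
        _ = _ := by ring
    omega
  have hidvd : i ∣ 8 * u' := ⟨v * e, by rw [← hevi]; ring⟩
  have hupos : 0 < u' := Nat.pos_of_dvd_of_pos hu' (by norm_num)
  have hile : i < 8 * u' + 1 := Nat.lt_succ_of_le (Nat.le_of_dvd (by omega) hidvd)
  rcases h.card_cases ht ht1 with h1 | h1 | h1 | h1 | h1
  · have hv2 := hodd (by rw [h1]; norm_num)
    have hidx : (centralizer ({t} : Set G)).index = 19 * u' := by rw [h1] at hci; omega
    rw [hidx] at hf
    obtain ⟨hi77, hu77⟩ := num8 u' hudw h7 hu'ne hf i hile hi1 himod hidvd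
    rw [hi77, hu77] at hevi
    have : v * e = 8 := by omega
    rcases he with rfl | rfl | rfl
    · exact hv2 (by rw [hv]; omega)
    · omega
    · omega
  · have hv2 := hodd (by rw [h1]; norm_num)
    rw [h1] at hci
    have h3 : 3 ∣ u' := by omega
    have hidx : (centralizer ({t} : Set G)).index = 19 * (u' / 3) := by omega
    rw [hidx] at hf
    obtain ⟨hi77, hu77⟩ := num24 u' hudw h7 hu'ne h3 hf i hile hi1 himod hidvd
    rw [hi77, hu77] at hevi
    have : v * e = 24 := by omega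
    rcases he with rfl | rfl | rfl
    · exact hv2 (by rw [hv]; omega)
    · exact hv2 (by rw [hv]; omega)
    · exact hv2 (by rw [hv]; omega)
  · rw [h1] at hci
    have key : ∀ u ∈ dw, 7 ∣ u → u ≠ 1155 → 15 ∣ u → ¬ 8 ∣ 1 + 19 * (u / 15) := by decide
    have h3 : 15 ∣ u' := by omega
    apply key u' hudw h7 hu'ne h3
    have hidx : (centralizer ({t} : Set G)).index = 19 * (u' / 15) := by omega
    rw [hidx] at hf
    exact hf
  · rw [h1] at hci
    have key : ∀ u ∈ dw, 7 ∣ u → u ≠ 1155 → 165 ∣ u → False := by decide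
    exact key u' hudw h7 hu'ne (by omega)
  · rw [h1] at hci
    have key : ∀ u ∈ dw, 7 ∣ u → u ≠ 1155 → 1155 ∣ u → False := by decide
    exact key u' hudw h7 hu'ne (by omega)

theorem D8.nineteen {S : Sylow 2 G} {σ τ : G} [IsSimpleGroup G] (hG : ¬ IsMulCommutative G)
    (hd : Nat.card G ∣ 175560) (d : D8 S σ τ) (h19 : 19 ∣ Nat.card G) : False := by
  have hF : Fact (Nat.Prime 19) := ⟨by norm_num⟩
  obtain ⟨V, hcard, hVS, -, -, -⟩ := d.main hG hd
  have h5 := d.not_five hG hd hVS
  set k := Nat.card V with hk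
  have h19k : 19 ∣ k := by
    rw [hcard] at h19
    exact (Nat.Coprime.dvd_of_dvd_mul_left (by norm_num) h19)
  have hk1045 : k ∣ 1045 := by
    have h1 := hd
    rw [hcard] at h1
    have : 168 * k ∣ 168 * 1045 := by simpa using h1
    exact Nat.dvd_of_mul_dvd_mul_left (by norm_num) this
  have hkc : k = 19 ∨ k = 209 := by
    have h1 : k ∈ dv := mem_dv (hk1045.trans (by norm_num))
    have key : ∀ y ∈ dv, y ∣ 1045 → 19 ∣ y → ¬ 5 ∣ y → y = 19 ∨ y = 209 := by decide +kernel
    exact key k h1 hk1045 h19k h5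
  obtain ⟨⟨z, hzV⟩, hz'⟩ := exists_prime_orderOf_dvd_card' 19 h19k
  have hz : orderOf z = 19 := by rwa [Subgroup.orderOf_mk] at hz'
  obtain ⟨i, e, hi, hi1, himod, he, hN, hGe⟩ := nineteen_data hG hd hz
  have h8 : 8 ∣ Nat.card (centralizer ({z} : Set G)) := by
    rw [← d.card]; exact card_dvd_of_le (hVS z hzV)
  have h19c : 19 ∣ Nat.card (centralizer ({z} : Set G)) := by
    rw [← hz]
    exact Subgroup.orderOf_dvd_natCard _ (mem_centralizer_self z)
  obtain ⟨v, hv⟩ : 152 ∣ Nat.card (centralizer ({z} : Set G)) := by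
    have : Nat.Coprime 8 19 := by norm_num
    exact this.mul_dvd_of_dvd_of_dvd h8 h19c
  rw [hv, hcard] at hGe
  have hi231 : i ∣ 231 := by
    rcases hkc with h1 | h1
    · rw [h1] at hGe
      have : v * e * i = 21 := by
        have : 152 * (v * e * i) = 152 * 21 := by rw [← mul_assoc, ← mul_assoc, hGe]
        omega
      exact (Dvd.intro_left _ this).trans (by norm_num)
    · rw [h1] at hGe
      have : v * e * i = 231 := by
        have : 152 * (v * e * i) = 152 * 231 := by rw [← mul_assoc, ← mul_assoc, hGe]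
        omega
      exact Dvd.intro_left _ this
  have hi77 := num231 i (Nat.lt_succ_of_le (Nat.le_of_dvd (by norm_num) hi231)) hi1 himod hi231
  rw [hi77] at hGe
  rcases hkc with h1 | h1
  · rw [h1] at hGe
    omega
  · -- `V ≤ N(⟨z⟩)`
    rw [h1] at hGe
    have hNc : Nat.card (normalizer (zpowers z : Set G)) = 456 := by
      rw [hN, hv]
      have : 152 * v * e = 456 := by omega
      exact this
    have hsqV : ¬ 19 ^ 2 ∣ Nat.card V := by rw [← hk, h1]; norm_num
    have hm := index_normalizer_modEq hz' hsqV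
    have hcV := card_mul_index (normalizer (zpowers (⟨z, hzV⟩ : V) : Set V))
    have h19V : 19 ∣ Nat.card (normalizer (zpowers (⟨z, hzV⟩ : V) : Set V)) := by
      rw [← hz']
      exact Subgroup.orderOf_dvd_natCard _ (le_normalizer (mem_zpowers _))
    have hdv := card_normalizer_dvd V ⟨z, hzV⟩
    have hdv' : Nat.card (normalizer (zpowers (⟨z, hzV⟩ : V) : Set V)) ∣ 456 := by
      rw [← hNc]; exact hdv
    rw [← hk, h1] at hcV
    obtain ⟨y, hy⟩ := h19V
    rw [hy] at hcV hdv'
    have hyi : y * (normalizer (zpowers (⟨z, hzV⟩ : V) : Set V)).index = 11 := by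
      have : 19 * (y * (normalizer (zpowers (⟨z, hzV⟩ : V) : Set V)).index) = 19 * 11 := by
        rw [← mul_assoc]; exact hcV
      omega
    rcases (Nat.dvd_prime (by norm_num : Nat.Prime 11)).1 (Dvd.intro_left _ hyi) with h2 | h2
    · rw [h2] at hyi
      rw [show y = 11 by omega] at hdv'
      norm_num at hdv'
    · rw [h2] at hm
      have : 11 % 19 = 1 % 19 := hm
      omega

end Cfsg.Agent.OrdJ
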