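import Cfsg.Agent.OrdJ.Nine
import Cfsg.Agent.OrdJ.FourV
import Cfsg.Agent.ClassBase.SimpleSmall

/-! Simple groups of order dividing `175560` and divisible by `19`. -/

set_option autoImplicit false

namespace Cfsg.Agent.OrdJ

open Subgroup Cfsg.Agent.H60

variable {G : Type*} [Group G] [Finite G]

theorem not_nineteen_of_index [IsSimpleGroup G] {H : Subgroup G} (h1 : H.index ≠ 1)
    (h2 : H.index < 19) : ¬ 19 ∣ Nat.card G := by
  intro h
  have h3 := Cfsg.Agent.ClassBase.card_dvd_factorial_index (H := H) (by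
    rintro rfl; exact h1 index_top)
  have h4 := (Nat.Prime.dvd_factorial (by norm_num : Nat.Prime 19)).1 (h.trans h3)
  omega

/-- index of the normalizer in a subgroup -/
theorem rel_index {V : Subgroup G} {z : G} (hz : orderOf z = 19) (hzV : z ∈ V)
    (hsq : ¬ 19 ^ 2 ∣ Nat.card G) : ∃ i m : ℕ, i % 19 = 1 ∧ 19 * m * i = Nat.card V ∧
      19 * m ∣ Nat.card (normalizer (zpowers z : Set G)) ∧
      (∀ W : Subgroup G, W ≤ V → W ≤ normalizer (zpowers z : Set G) → Nat.card W ∣ 19 * m) ∧
      (i = 1 → V ≤ normalizer (zpowers z : Set G)) := by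
  have hF : Fact (Nat.Prime 19) := ⟨by norm_num⟩
  have hz' : orderOf (⟨z, hzV⟩ : V) = 19 := by rw [Subgroup.orderOf_mk]; exact hz
  have hsqV : ¬ 19 ^ 2 ∣ Nat.card V := fun h => hsq (h.trans (card_subgroup_dvd_card V))
  have hm := index_normalizer_modEq hz' hsqV
  have hcV := card_mul_index (normalizer (zpowers (⟨z, hzV⟩ : V) : Set V))
  have h19V : 19 ∣ Nat.card (normalizer (zpowers (⟨z, hzV⟩ : V) : Set V)) := by
    rw [← hz']
    exact Subgroup.orderOf_dvd_natCard _ (le_normalizer (mem_zpowers _))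
  have hdv := card_normalizer_dvd V ⟨z, hzV⟩
  obtain ⟨m, hm'⟩ := h19V
  have key : ∀ y : G, y ∈ zpowers z ↔ ∃ h : y ∈ V, (⟨y, h⟩ : V) ∈ zpowers (⟨z, hzV⟩ : V) := by
    intro y
    constructor
    · rintro ⟨k, rfl⟩
      exact ⟨zpow_mem hzV k, ⟨k, rfl⟩⟩
    · rintro ⟨h, ⟨k, hk⟩⟩
      exact ⟨k, congrArg Subtype.val hk⟩
  refine ⟨_, m, hm, ?_, ?_, ?_, ?_⟩
  · rw [← hm']; exact hcV
  · rw [← hm']; exact hdv
  · intro W hWV hWN
    have h1 : W.subgroupOf V ≤ normalizer (zpowers (⟨z, hzV⟩ : V) : Set V) := by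
      intro x hx
      have hx' := hWN (mem_subgroupOf.1 hx)
      rw [mem_normalizer_iff] at hx' ⊢
      intro y
      have e1 : y ∈ zpowers (⟨z, hzV⟩ : V) ↔ (y : G) ∈ zpowers z := by
        rw [key]; exact ⟨fun h => ⟨y.2, h⟩, fun ⟨_, h⟩ => h⟩
      have e2 : x * y * x⁻¹ ∈ zpowers (⟨z, hzV⟩ : V) ↔ ((x * y * x⁻¹ : V) : G) ∈ zpowers z := by
        rw [key]; exact ⟨fun h => ⟨(x * y * x⁻¹).2, h⟩, fun ⟨_, h⟩ => h⟩
      rw [e1, e2]
      exact hx' y
    have h2 := card_dvd_of_le h1
    rw [hm', Nat.card_congr (Subgroup.subgroupOfEquivOfLe hWV).toEquiv] at h2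
    exact h2
  · intro hi x hx
    rw [index_eq_one] at hi
    have hn : (⟨x, hx⟩ : V) ∈ normalizer (zpowers (⟨z, hzV⟩ : V) : Set V) := by
      rw [hi]; trivial
    rw [mem_normalizer_iff] at hn ⊢
    intro y
    rw [key, key]
    constructor
    · rintro ⟨h, h'⟩
      exact ⟨mul_mem (mul_mem hx h) (inv_mem hx), (hn ⟨y, h⟩).1 h'⟩
    · rintro ⟨h, h'⟩
      have hy : y ∈ V := by
        have := mul_mem (mul_mem (inv_mem hx) h) hx
        simpa [mul_assoc] using this
      exact ⟨hy, (hn ⟨y, hy⟩).2 h'⟩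

/-- the Klein four case -/
theorem four_nineteen [IsSimpleGroup G] (hG : ¬ IsMulCommutative G) (hd : Nat.card G ∣ 175560)
    (P : Sylow 2 G) (hP : Nat.card (P : Subgroup G) = 4) : ¬ 19 ∣ Nat.card G := by
  intro h19
  have hF : Fact (Nat.Prime 19) := ⟨by norm_num⟩
  have hF2 : Fact (Nat.Prime 2) := ⟨by norm_num⟩
  have hsq : ¬ 19 ^ 2 ∣ Nat.card G := not_sq_dvd hd (by norm_num) (by norm_num)
  have hci := card_mul_index (P : Subgroup G)
  rw [hP] at hci
  have hodd : ¬ 2 ∣ (P : Subgroup G).index := P.not_dvd_index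
  set g₀ := (P : Subgroup G).index with hg
  have hg0 : g₀ ∣ 21945 := by
    have h1 : g₀ ∣ 8 * 21945 := (Dvd.intro_left _ hci).trans (by simpa using hd)
    have h2 : Nat.Coprime g₀ 8 := by
      rw [show 8 = 2 ^ 3 by norm_num]
      apply Nat.Coprime.pow_right
      exact ((Nat.Prime.coprime_iff_not_dvd Nat.prime_two).2 hodd).symm
    exact h2.dvd_of_dvd_mul_left h1
  have hnc : ¬ ∃ N : Subgroup G, N.Normal ∧ Nat.card N = g₀ := by
    rintro ⟨N, hN, hcard⟩
    rcases hN.eq_bot_or_eq_top with h | h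
    · rw [h, card_bot] at hcard
      rw [← hcard] at hci
      rw [← hci] at h19
      norm_num at h19
    · rw [h, card_top] at hcard
      have := Nat.card_pos (α := G)
      omega
  have hodd' : Odd g₀ := by
    rw [← Nat.not_even_iff_odd, even_iff_two_dvd]; exact hodd
  obtain ⟨hK, -⟩ := Cfsg.Agent.H74.klein_of_no_complement g₀ hodd' hci.symm hnc P
  have hKo : ∀ J ∈ (P : Subgroup G), J ≠ 1 → orderOf J = 2 := by
    intro J hJ hJ1
    apply orderOf_eq_prime _ hJ1
    have := hK.exponent_two
    have h2 := Monoid.pow_exponent_eq_one (⟨J, hJ⟩ : (P : Subgroup G))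
    rw [this] at h2
    exact congrArg Subtype.val h2
  have hex : ∃ J ∈ (P : Subgroup G), J ≠ 1 := by
    by_contra hcon
    push Not at hcon
    have : (P : Subgroup G) = ⊥ := (eq_bot_iff_forall _).2 hcon
    rw [this, card_bot] at hP
    omega
  obtain ⟨J₀, hJ₀, hJ₀1⟩ := hex
  set CP := centralizer ((P : Subgroup G) : Set G) with hCP
  have hcCP := card_mul_index CP
  -- the two possible cases
  have hcase : ∀ J ∈ (P : Subgroup G), J ≠ 1 →
      (CP.index = 165 ∧ (centralizer ({J} : Set G)).index = 55) ∨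
      (CP.index = 1155 ∧ (centralizer ({J} : Set G)).index = 231) := by
    intro J hJ hJ1
    rcases four_index hg0 hci.symm hnc P hJ (hKo J hJ hJ1) with h | h | h | h
    · exact absurd h19 (not_nineteen_of_index (by rw [h.2]; norm_num) (by rw [h.2]; norm_num))
    · exact absurd h19 (not_nineteen_of_index (by rw [h.2]; norm_num) (by rw [h.2]; norm_num))
    · exact Or.inl h
    · exact Or.inr h
  have h19C : 19 ∣ Nat.card CP := by
    rw [← hcCP] at h19
    rcases (Nat.Prime.dvd_mul (by norm_num : Nat.Prime 19)).1 h19 with h | h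
    · exact h
    · rcases hcase J₀ hJ₀ hJ₀1 with h1 | h1
      · rw [h1.1] at h; norm_num at h
      · rw [h1.1] at h; norm_num at h
  obtain ⟨⟨z, hzC⟩, hz'⟩ := exists_prime_orderOf_dvd_card' 19 h19C
  have hz : orderOf z = 19 := by rwa [Subgroup.orderOf_mk] at hz'
  obtain ⟨i, e, hi, hi1, himod, he, hN, hGe⟩ := nineteen_data hG hd hz
  have hPz : (P : Subgroup G) ≤ centralizer ({z} : Set G) := by
    intro x hx
    rw [mem_centralizer_singleton_iff]
    exact (mem_centralizer_iff.1 hzC x hx)
  have h4 : 4 ∣ Nat.card (centralizer ({z} : Set G)) := by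
    rw [← hP]; exact card_dvd_of_le hPz
  have h19c : 19 ∣ Nat.card (centralizer ({z} : Set G)) := by
    rw [← hz]
    exact Subgroup.orderOf_dvd_natCard _ (mem_centralizer_self z)
  obtain ⟨v, hv⟩ : 76 ∣ Nat.card (centralizer ({z} : Set G)) := by
    have : Nat.Coprime 4 19 := by norm_num
    exact this.mul_dvd_of_dvd_of_dvd h4 h19c
  obtain ⟨w, hw⟩ := hg0
  rw [hv] at hGe
  have hprod : 76 * v * e * i * w = 87780 := by
    rw [hGe, ← hci, mul_assoc, ← hw]; norm_num
  have he3 : e = 3 := by
    have h1155 : 19 * (v * e * i * w) = 19 * 1155 := by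
      have : 76 * v * e * i * w = 4 * (19 * (v * e * i * w)) := by ring
      omega
    have h1155' : v * e * i * w = 1155 := by omega
    rcases he with rfl | rfl | rfl
    · exfalso
      have : 2 * (v * i * w) = 1155 := by rw [← h1155']; ring
      omega
    · rfl
    · exfalso
      have : 6 * (v * i * w) = 1155 := by rw [← h1155']; ring
      omega
  rw [he3] at hprod hN hGe
  have h385 : i * (v * w) = 385 := by
    have : 76 * v * 3 * i * w = 228 * (i * (v * w)) := by ring
    omega
  have hi385 : i ∣ 385 := Dvd.intro _ h385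
  have hi77 := num385 i (Nat.lt_succ_of_le (Nat.le_of_dvd (by norm_num) hi385)) hi1 himod hi385
  rw [hi77] at hGe h385
  have hvw : v * w = 5 := by omega
  have hNc : Nat.card (normalizer (zpowers z : Set G)) = 228 * v := by
    rw [hN, hv]; ring
  have hv15 : v = 1 ∨ v = 5 := (Nat.dvd_prime (by norm_num)).1 (Dvd.intro _ hvw)
  -- `C(P)` lies in `N(z)`
  obtain ⟨i₁, m₁, hi₁, hm₁, hm₁', -, hle₁⟩ := rel_index hz hzC hsq
  rcases hcase J₀ hJ₀ hJ₀1 with h1 | h1
  · rw [h1.1, ← hGe, ← hm₁] at hcCP
    rcases hv15 with rfl | rfl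
    · have : m₁ * i₁ * 165 * 19 = 76 * 231 := by
        rw [← show 76 * 1 * 3 * 77 = 76 * 231 by norm_num, ← hcCP]; ring
      omega
    · have hmi : m₁ * i₁ = 28 := by
        have : m₁ * i₁ * 165 * 19 = 76 * 1155 := by
          rw [← show 76 * 5 * 3 * 77 = 76 * 1155 by norm_num, ← hcCP]; ring
        omega
      have hi₁' : i₁ = 1 := by
        have hle := Nat.le_of_dvd (by norm_num) (Dvd.intro_left _ hmi)
        have hdvd : i₁ ∣ 28 := Dvd.intro_left _ hmi
        interval_cases i₁ <;> omega
      rw [hi₁'] at hmi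
      rw [show m₁ = 28 by omega, hNc] at hm₁'
      norm_num at hm₁'
  · have hv5 : v = 5 := by
      rw [h1.1, ← hGe] at hcCP
      rcases hv15 with rfl | rfl
      · exfalso
        have : Nat.card CP * 1155 = 17556 := by rw [hcCP]
        omega
      · rfl
    rw [hv5] at hGe hv hNc
    have hcardG : Nat.card G = 87780 := by rw [← hGe]
    have hcP : Nat.card CP = 76 := by
      rw [h1.1, hcardG] at hcCP; omega
    have hmi : m₁ * i₁ = 4 := by
      rw [hcP] at hm₁
      have : 19 * (m₁ * i₁) = 76 := by rw [← hm₁]; ring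
      omega
    have hi₁' : i₁ = 1 := by
      have hle := Nat.le_of_dvd (by norm_num) (Dvd.intro_left _ hmi)
      interval_cases i₁ <;> omega
    have hCN : CP ≤ normalizer (zpowers z : Set G) := hle₁ hi₁'
    -- all `C(J)` equal `C(z)`
    have hJC : ∀ J ∈ (P : Subgroup G), J ≠ 1 →
        centralizer ({J} : Set G) = centralizer ({z} : Set G) := by
      intro J hJ hJ1
      have hind : (centralizer ({J} : Set G)).index = 231 := by
        rcases hcase J hJ hJ1 with h2 | h2
        · rw [h1.1] at h2; exact absurd h2.1 (by norm_num)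
        · exact h2.2
      have hcJ := card_mul_index (centralizer ({J} : Set G))
      rw [hind, hcardG] at hcJ
      have hcJ' : Nat.card (centralizer ({J} : Set G)) = 380 := by omega
      have hCPJ : CP ≤ centralizer ({J} : Set G) := by
        intro x hx
        rw [mem_centralizer_singleton_iff]
        exact (mem_centralizer_iff.1 hx J hJ).symm
      have hzJ : z ∈ centralizer ({J} : Set G) := hCPJ hzC
      obtain ⟨i₂, m₂, hi₂, hm₂, -, hW₂, hle₂⟩ := rel_index hz hzJ hsq
      have hmi2 : m₂ * i₂ = 20 := by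
        rw [hcJ'] at hm₂
        have : 19 * (m₂ * i₂) = 380 := by rw [← hm₂]; ring
        omega
      have hi₂' : i₂ = 1 ∨ i₂ = 20 := by
        have hle := Nat.le_of_dvd (by norm_num) (Dvd.intro_left _ hmi2)
        interval_cases i₂ <;> omega
      have hi₂'' : i₂ = 1 := by
        rcases hi₂' with h2 | h2
        · exact h2
        · exfalso
          rw [h2] at hmi2
          have h3 := hW₂ CP hCPJ hCN
          rw [hcP, show m₂ = 1 by omega] at h3
          norm_num at h3
      have hJN := hle₂ hi₂''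
      have hr : ratio z = 3 := by
        have h3 := card_normalizer_eq z
        rw [hN] at h3
        exact (Nat.eq_of_mul_eq_mul_left Nat.card_pos h3).symm
      have hJz : centralizer ({J} : Set G) ≤ centralizer ({z} : Set G) := by
        intro x hx
        have h3 : ((centralizer (zpowers z : Set G)).subgroupOf
          (normalizer (zpowers z : Set G))).index = 3 := by
          rw [centralizer_zpowers]; exact hr
        have h4 := Subgroup.pow_index_mem ((centralizer (zpowers z : Set G)).subgroupOf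
          (normalizer (zpowers z : Set G))) ⟨x, hJN hx⟩
        rw [h3, mem_subgroupOf, centralizer_zpowers] at h4
        have h5 : x ^ 3 ∈ centralizer ({z} : Set G) := h4
        have h6 : x ^ 380 = 1 := by
          have := pow_card_eq_one' (x := (⟨x, hx⟩ : centralizer ({J} : Set G)))
          rw [hcJ'] at this
          exact congrArg Subtype.val this
        have h7 : x = (x ^ 3) ^ 127 := by
          rw [← pow_mul, show 3 * 127 = 380 + 1 by norm_num, pow_succ, h6, one_mul]
        rw [h7]
        exact pow_mem h5 127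
      apply Subgroup.eq_of_le_of_card_ge hJz
      rw [hcJ', hv]
    -- `C(z)` centralizes `P`
    have hzP : centralizer ({z} : Set G) ≤ CP := by
      intro x hx
      rw [hCP, mem_centralizer_iff]
      intro J hJ
      by_cases hJ1 : J = 1
      · rw [hJ1, one_mul, mul_one]
      · have h3 : x ∈ centralizer ({J} : Set G) := by rw [hJC J hJ hJ1]; exact hx
        rw [mem_centralizer_singleton_iff] at h3
        exact h3.symm
    have h3 := card_dvd_of_le hzP
    rw [hv, hcP] at h3
    norm_num at h3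

theorem simple_nineteen [IsSimpleGroup G] (hG : ¬ IsMulCommutative G) (hd : Nat.card G ∣ 175560)
    (h19 : 19 ∣ Nat.card G) : Nat.card G = 175560 := by
  have hF2 : Fact (Nat.Prime 2) := ⟨by norm_num⟩
  obtain ⟨P⟩ : Nonempty (Sylow 2 G) := inferInstance
  obtain ⟨n, hn⟩ := P.isPGroup'.exists_card_eq
  have hn3 : n ≤ 3 := by
    by_contra h
    push Not at h
    have h1 : 2 ^ 4 ∣ Nat.card (P : Subgroup G) := by rw [hn]; exact pow_dvd_pow 2 h
    exact not_sixteen hd (h1.trans (card_subgroup_dvd_card _))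
  have hci := card_mul_index (P : Subgroup G)
  have hodd : ¬ 2 ∣ (P : Subgroup G).index := P.not_dvd_index
  have hsf : n ≤ 1 → False := by
    intro hn1
    have hsqf : Squarefree (Nat.card G) := by
      rw [Nat.squarefree_iff_prime_squarefree]
      intro p hp hpp
      rw [← pow_two] at hpp
      by_cases hp2 : p = 2
      · rw [hp2, ← hci, hn] at hpp
        have h2 : Nat.Coprime (2 ^ 2) (P : Subgroup G).index :=
          Nat.Coprime.pow_left 2 ((Nat.Prime.coprime_iff_not_dvd Nat.prime_two).2 hodd)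
        have h3 := h2.dvd_of_dvd_mul_right hpp
        have h4 := (Nat.pow_dvd_pow_iff_le_right (by norm_num)).1 h3
        omega
      · exact not_sq_dvd hd hp hp2 hpp
    have hZ := IsZGroup.of_squarefree hsqf
    have hs : Group.IsSolvable G := inferInstance
    apply hG
    have h1 := IsSimpleGroup.comm_iff_isSolvable (G := G)
    exact ⟨⟨h1.2 hs⟩⟩
  interval_cases n
  · exact (hsf (by norm_num)).elim
  · exact (hsf (by norm_num)).elim
  · exact absurd h19 (four_nineteen hG hd P (by rw [hn]; norm_num))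
  · rcases sylow_types hG hd P (by rw [hn]; norm_num) with h | ⟨σ, τ, h⟩
    · exact h.nineteen h19
    · exact (h.nineteen hG hd h19).elim

end Cfsg.Agent.OrdJ
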