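import Cfsg.Agent.OrdJ.Nine2

/-! Groups of order `175560` are simple or have a normal Sylow `19`-subgroup. -/

set_option autoImplicit false

universe u

namespace Cfsg.Agent.OrdJ

open Subgroup Cfsg.Agent.H60

variable {G : Type*} [Group G] [Finite G]

/-- an element of order `19` normalizing a subgroup with fewer than `19` elements
centralizes it -/
theorem commute_of_small {R : Subgroup G} {w : G} (hw : orderOf w = 19)
    (hR : Nat.card R < 19) (hn : w ∈ normalizer (R : Set G)) :
    R ≤ centralizer ({w} : Set G) := by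
  set φ : (zpowers w) →* Equiv.Perm R :=
    (MulAut.toPerm R).comp (R.normalizerMonoidHom.comp
      (Subgroup.inclusion (by rw [zpowers_le]; exact hn))) with hφ
  have h1 : orderOf (φ ⟨w, mem_zpowers w⟩) ∣ 19 := by
    rw [← hw, ← Subgroup.orderOf_mk w (mem_zpowers w)]
    exact orderOf_map_dvd φ _
  have h2 : orderOf (φ ⟨w, mem_zpowers w⟩) ∣ (Nat.card R).factorial := by
    rw [← Nat.card_perm]
    exact orderOf_dvd_natCard _
  have h3 : orderOf (φ ⟨w, mem_zpowers w⟩) = 1 := by
    rcases (Nat.dvd_prime (by norm_num)).1 h1 with h | h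
    · exact h
    · rw [h] at h2
      have := (Nat.Prime.dvd_factorial (by norm_num : Nat.Prime 19)).1 h2
      omega
  rw [orderOf_eq_one_iff] at h3
  intro x hx
  rw [mem_centralizer_singleton_iff]
  have h4 : ((φ ⟨w, mem_zpowers w⟩) ⟨x, hx⟩ : G) = x := by rw [h3]; rfl
  have h5 : ((φ ⟨w, mem_zpowers w⟩) ⟨x, hx⟩ : G) = w * x * w⁻¹ := rfl
  rw [h5] at h4
  exact (mul_inv_eq_iff_eq_mul.1 h4).symm

theorem central_of_index {N : Subgroup G} [hN : N.Normal] (hd : Nat.card G ∣ 175560) {z : G}
    (hz : orderOf z = 19) (h19 : ¬ 19 ∣ Nat.card N) (hG : Nat.card G = 19 * Nat.card N) :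
    Nat.card G ∣ Nat.card (centralizer ({z} : Set G)) := by
  have hF : Fact (Nat.Prime 19) := ⟨by norm_num⟩
  have hsq : ¬ 19 ^ 2 ∣ Nat.card G := not_sq_dvd hd (by norm_num) (by norm_num)
  rw [Nat.dvd_iff_prime_pow_dvd_dvd]
  intro p k hp hpk
  have hFp : Fact p.Prime := ⟨hp⟩
  by_cases hp19 : p = 19
  · rw [hp19] at hpk ⊢
    have hk : k < 2 := by
      by_contra h
      push Not at h
      exact hsq ((pow_dvd_pow 19 h).trans hpk)
    have h1 : 19 ^ 1 ∣ Nat.card (centralizer ({z} : Set G)) := by
      rw [pow_one, ← hz]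
      exact Subgroup.orderOf_dvd_natCard _ (mem_centralizer_self z)
    exact (pow_dvd_pow 19 (by omega)).trans h1
  · have hpN : p ^ k ∣ Nat.card N := by
      rw [hG] at hpk
      have : Nat.Coprime (p ^ k) 19 :=
        Nat.Coprime.pow_left k ((Nat.coprime_primes hp (by norm_num)).2 hp19)
      exact this.dvd_of_dvd_mul_left hpk
    obtain ⟨R⟩ : Nonempty (Sylow p N) := inferInstance
    have hpR : p ^ k ∣ Nat.card R := R.pow_dvd_card_of_pow_dvd_card hpN
    have hfr := Sylow.normalizer_sup_eq_top R
    set R' := (R : Subgroup N).map N.subtype with hR'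
    have hcR : Nat.card R' = Nat.card R := Subgroup.card_map_of_injective N.subtype_injective
    have h1 : 19 ∣ Nat.card (normalizer (R' : Set G)) := by
      have h2 : N.relIndex (normalizer (R' : Set G)) = N.index := by
        rw [← relIndex_sup_right, hfr, relIndex_top_right]
      have h3 : N.index = 19 := by
        have := card_mul_index N
        rw [hG, mul_comm] at this
        exact Nat.eq_of_mul_eq_mul_right Nat.card_pos this
      rw [h3] at h2
      rw [← h2]
      exact N.relIndex_dvd_card _
    obtain ⟨⟨w, hwn⟩, hw⟩ := exists_prime_orderOf_dvd_card' 19 h1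
    rw [Subgroup.orderOf_mk] at hw
    have hsmall : Nat.card R' < 19 := by
      obtain ⟨j, hj⟩ := R.isPGroup'.exists_card_eq
      have hj' : Nat.card R = p ^ j := hj
      rw [hcR, hj']
      have hdG : p ^ j ∣ Nat.card G := by
        rw [← hj', ← hcR]; exact card_subgroup_dvd_card R'
      by_cases h2 : p = 2
      · rw [h2] at hdG ⊢
        have : j < 4 := by
          by_contra h
          push Not at h
          exact not_sixteen hd ((pow_dvd_pow 2 h).trans hdG)
        interval_cases j <;> norm_num
      · have hj2 : j < 2 := by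
          by_contra h
          push Not at h
          exact not_sq_dvd hd hp h2 ((pow_dvd_pow p h).trans hdG)
        interval_cases j
        · norm_num
        · rw [pow_one] at hdG ⊢
          rcases prime_mem hp (hdG.trans hd) with h | h | h | h | h | h <;> omega
    have h5 := card_dvd_of_le (commute_of_small hw hsmall hwn)
    rw [hcR] at h5
    rw [card_centralizer_eq (q := 19) hz hw hsq]
    exact hpR.trans h5

theorem ind : ∀ n : ℕ, ∀ (X : Type u) [Group X] [Finite X], Nat.card X = n → n ∣ 175560 →
    (IsSimpleGroup X → n ≠ 175560) → ∀ z : X, orderOf z = 19 → (zpowers z).Normal := by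
  intro n
  induction n using Nat.strong_induction_on with
  | _ n ih =>
  intro X _ _ hX hn hs z hz
  have hF : Fact (Nat.Prime 19) := ⟨by norm_num⟩
  have hd : Nat.card X ∣ 175560 := by rw [hX]; exact hn
  have hsq : ¬ 19 ^ 2 ∣ Nat.card X := not_sq_dvd hd (by norm_num) (by norm_num)
  have hnle : n ≤ 175560 := Nat.le_of_dvd (by norm_num) hn
  have h19X : 19 ∣ Nat.card X := by rw [← hz]; exact orderOf_dvd_natCard z
  by_cases hsim : IsSimpleGroup X
  · by_cases hc : IsMulCommutative X
    · refine ⟨fun a ha g => ?_⟩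
      have : g * a = a * g := hc.is_comm.comm g a
      rw [this, mul_inv_cancel_right]
      exact ha
    · exact absurd (hX ▸ simple_nineteen hc hd h19X) (hs hsim)
  have hnt : Nontrivial X := by
    refine ⟨⟨z, 1, ?_⟩⟩
    rintro rfl
    rw [orderOf_one] at hz
    omega
  have hexN : ∃ N : Subgroup X, N.Normal ∧ N ≠ ⊥ ∧ N ≠ ⊤ := by
    by_contra hcon
    push Not at hcon
    apply hsim
    refine { exists_pair_ne := hnt.exists_pair_ne, eq_bot_or_eq_top_of_normal := ?_ }
    intro H hH
    by_cases h : H = ⊥
    · exact Or.inl h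
    · exact Or.inr (hcon H hH h)
  have A : ∀ M : Subgroup X, M.Normal → M ≠ ⊤ → z ∈ M → (zpowers z).Normal := by
    intro M hM hMt hzM
    have hlt : Nat.card M < n := by
      rw [← hX]
      exact lt_of_le_of_ne (Nat.le_of_dvd Nat.card_pos (card_subgroup_dvd_card M))
        (fun h => hMt (Subgroup.eq_top_of_card_eq M h))
    have hz' : orderOf (⟨z, hzM⟩ : M) = 19 := by rw [Subgroup.orderOf_mk]; exact hz
    have hsqM : ¬ 19 ^ 2 ∣ Nat.card M := fun h => hsq (h.trans (card_subgroup_dvd_card M))
    have h1 := ih (Nat.card M) hlt M rfl ((card_subgroup_dvd_card M).trans hd)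
      (fun _ => by omega) ⟨z, hzM⟩ hz'
    have h2 : (sylZ hz' hsqM : Subgroup M).Normal := h1
    have h3 : (sylZ hz' hsqM : Subgroup M).Characteristic := Sylow.characteristic_of_normal _ h2
    have h4 : (zpowers (⟨z, hzM⟩ : M)).Characteristic := h3
    have h5 : ((zpowers (⟨z, hzM⟩ : M)).map M.subtype).Normal := inferInstance
    rw [MonoidHom.map_zpowers] at h5
    exact h5
  obtain ⟨N, hN, hNb, hNt⟩ := hexN
  by_cases h19 : 19 ∣ Nat.card N
  · obtain ⟨⟨a, ha⟩, hao⟩ := exists_prime_orderOf_dvd_card' 19 h19
    rw [Subgroup.orderOf_mk] at hao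
    obtain ⟨g, hg⟩ := exists_conj_zpowers hao hz hsq
    apply A N hN hNt
    have h1 : zpowers z ≤ N := by
      rw [← hg, zpowers_le]
      exact hN.conj_mem a ha g
    exact h1 (mem_zpowers z)
  · have hzN : z ∉ N := by
      intro h
      apply h19
      rw [← hz]
      exact Subgroup.orderOf_dvd_natCard _ h
    have hzq : orderOf (QuotientGroup.mk' N z) = 19 := by
      rcases (Nat.dvd_prime (by norm_num)).1 (hz ▸ orderOf_map_dvd (QuotientGroup.mk' N) z) with
        h | h
      · rw [orderOf_eq_one_iff] at h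
        exact absurd ((QuotientGroup.eq_one_iff z).1 h) hzN
      · exact h
    have hcq : Nat.card (X ⧸ N) * Nat.card N = Nat.card X :=
      (Subgroup.card_eq_card_quotient_mul_card_subgroup N).symm
    have hlt : Nat.card (X ⧸ N) < n := by
      rw [← hX, ← hcq]
      have h1 : 1 < Nat.card N := by
        rw [Subgroup.one_lt_card_iff_ne_bot]; exact hNb
      have h2 : 0 < Nat.card (X ⧸ N) := Nat.card_pos
      nlinarith
    have h1 := ih (Nat.card (X ⧸ N)) hlt (X ⧸ N) rfl ((Dvd.intro _ hcq).trans hd)
      (fun _ => by omega) _ hzq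
    set M := (zpowers (QuotientGroup.mk' N z)).comap (QuotientGroup.mk' N) with hM
    have hMn : M.Normal := inferInstance
    have hzM : z ∈ M := by rw [hM, mem_comap]; exact mem_zpowers _
    by_cases hMt : M = ⊤
    · have h2 : zpowers (QuotientGroup.mk' N z) = ⊤ := by
        rw [eq_top_iff]
        intro y _
        obtain ⟨x, rfl⟩ := QuotientGroup.mk'_surjective N y
        have : x ∈ M := by rw [hMt]; trivial
        exact this
      have h3 : Nat.card (X ⧸ N) = 19 := by
        rw [← card_top (G := X ⧸ N), ← h2, Nat.card_zpowers, hzq]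
      rw [h3] at hcq
      have h4 := central_of_index hd hz h19 hcq.symm
      have h5 : centralizer ({z} : Set X) = ⊤ := by
        apply Subgroup.eq_top_of_card_eq
        exact Nat.dvd_antisymm (card_subgroup_dvd_card _) h4
      refine ⟨fun a ha g => ?_⟩
      obtain ⟨k, rfl⟩ := ha
      have h6 : g ∈ centralizer ({z} : Set X) := by rw [h5]; trivial
      rw [mem_centralizer_singleton_iff] at h6
      have h7 : Commute g z := h6
      have h8 := (h7.zpow_right k).eq
      change g * z ^ k * g⁻¹ ∈ zpowers z
      rw [h8, mul_inv_cancel_right]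
      exact zpow_mem (mem_zpowers z) k
    · exact A M hMn hMt hzM

theorem nineteen_normal (hG : Nat.card G = 175560) (hs : ¬ IsSimpleGroup G) (P : Sylow 19 G) :
    (P : Subgroup G).Normal := by
  have hF : Fact (Nat.Prime 19) := ⟨by norm_num⟩
  have hsq : ¬ 19 ^ 2 ∣ Nat.card G := by rw [hG]; norm_num
  have h19 : 19 ∣ Nat.card P := by
    have := P.pow_dvd_card_of_pow_dvd_card (n := 1) (by rw [hG]; norm_num)
    simpa using this
  obtain ⟨⟨z, hzP⟩, hz'⟩ := exists_prime_orderOf_dvd_card' 19 h19
  have hz : orderOf z = 19 := by rwa [Subgroup.orderOf_mk] at hz'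
  have h1 := ind (Nat.card G) G rfl (by rw [hG]) (fun h => absurd h hs) z hz
  have h2 : (P : Subgroup G) = zpowers z := by
    symm
    apply Subgroup.eq_of_le_of_card_ge
    · rw [zpowers_le]; exact hzP
    · rw [Nat.card_zpowers, hz]
      obtain ⟨j, hj⟩ := P.isPGroup'.exists_card_eq
      have hj' : Nat.card (P : Subgroup G) = 19 ^ j := hj
      rw [hj']
      have hj2 : j < 2 := by
        by_contra h
        push Not at h
        apply hsq
        exact (pow_dvd_pow 19 h).trans (hj' ▸ card_subgroup_dvd_card (P : Subgroup G))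
      interval_cases j <;> norm_num
  rw [h2]
  exact h1

end Cfsg.Agent.OrdJ
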