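import Cfsg.Agent.OrdJ.Eight

/-! Sylow `2`-subgroups of order `8` of simple groups: elementary abelian or dihedral. -/

set_option autoImplicit false

namespace Cfsg.Agent.OrdJ

open Subgroup

variable {G : Type*} [Group G] [Finite G]

/-- a dihedral Sylow `2`-subgroup of order `8` -/
structure D8 (S : Sylow 2 G) (σ τ : G) : Prop where
  card : Nat.card (S : Subgroup G) = 8
  σ_mem : σ ∈ (S : Subgroup G)
  τ_mem : τ ∈ (S : Subgroup G)
  σ_ord : orderOf σ = 4
  τ_ord : orderOf τ = 2
  τ_not : τ ∉ zpowers σ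
  rel : τ * σ * τ⁻¹ = σ⁻¹

/-- an involution in the centre of `S`, conjugates of which in `S` coincide with it -/
theorem not_isolated_of [IsSimpleGroup G] (hG : ¬ IsMulCommutative G) {S : Sylow 2 G} {z : G}
    (hz2 : orderOf z = 2) (hSz : (S : Subgroup G) ≤ centralizer ({z} : Set G))
    (hfix : ∀ g : G, g * z * g⁻¹ ∈ (S : Subgroup G) → g * z * g⁻¹ = z) : False := by
  apply Cfsg.Agent.H68.ST.not_isolated hG z
  refine ⟨hz2, ?_⟩
  intro g hg
  have hzz : z ^ 2 = 1 := by rw [← hz2, pow_orderOf_eq_one]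
  have hmem : g * z * g⁻¹ ∈ centralizer ({z} : Set G) := by
    rw [mem_centralizer_singleton_iff]
    exact hg.symm
  have hpow : (⟨g * z * g⁻¹, hmem⟩ : centralizer ({z} : Set G)) ^ 2 ^ 1 = 1 := by
    apply Subtype.ext
    change (g * z * g⁻¹) ^ 2 ^ 1 = 1
    rw [pow_one, conj_pow, hzz, mul_one, mul_inv_cancel]
  obtain ⟨c, hc⟩ := Cfsg.Agent.H4.exists_conj_mem_sylow (S.subtype hSz) hpow
  have hc1 : (c : G) * (g * z * g⁻¹) * (c : G)⁻¹ ∈ (S : Subgroup G) := hc
  have hc2 : (c : G) * z = z * c := mem_centralizer_singleton_iff.1 c.2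
  have e1 : (c : G) * (g * z * g⁻¹) * (c : G)⁻¹ = (c * g) * z * (c * g)⁻¹ := by group
  rw [e1] at hc1
  have e2 := hfix _ hc1
  rw [← e1] at e2
  calc g * z * g⁻¹ = (c : G)⁻¹ * ((c : G) * (g * z * g⁻¹) * (c : G)⁻¹) * c := by group
    _ = (c : G)⁻¹ * z * c := by rw [e2]
    _ = (c : G)⁻¹ * (z * c) := by group
    _ = (c : G)⁻¹ * (c * z) := by rw [hc2]
    _ = z := by group

/-- more than one involution -/
theorem not_unique [IsSimpleGroup G] (hG : ¬ IsMulCommutative G) {S : Sylow 2 G} {z : G}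
    (hz : z ∈ (S : Subgroup G)) (hz2 : orderOf z = 2)
    (hu : ∀ u ∈ (S : Subgroup G), u * u = 1 → u = 1 ∨ u = z) : False := by
  have hzz : z * z = 1 := by rw [← pow_two, ← hz2, pow_orderOf_eq_one]
  have hz1 : z ≠ 1 := by
    rintro rfl
    rw [orderOf_one] at hz2
    omega
  have hconj : ∀ g : G, g * z * g⁻¹ ∈ (S : Subgroup G) → g * z * g⁻¹ = z := by
    intro g hg
    rcases hu _ hg (by
      calc g * z * g⁻¹ * (g * z * g⁻¹) = g * (z * z) * g⁻¹ := by group
        _ = 1 := by rw [hzz]; group) with h1 | h1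
    · exact absurd (conj_eq_one_iff.1 h1) hz1
    · exact h1
  apply not_isolated_of hG hz2 _ hconj
  intro x hx
  rw [mem_centralizer_singleton_iff]
  exact mul_inv_eq_iff_eq_mul.1 (hconj x (mul_mem (mul_mem hx hz) (inv_mem hx)))

theorem sylow_types [IsSimpleGroup G] (hG : ¬ IsMulCommutative G) (hd : Nat.card G ∣ 175560)
    (S : Sylow 2 G) (h8 : Nat.card (S : Subgroup G) = 8) :
    E8 S ∨ ∃ σ τ : G, D8 S σ τ := by
  classical
  by_cases hsq : ∀ x ∈ (S : Subgroup G), x * x = 1
  · exact Or.inl ⟨inferInstance, hG, h8, hsq, hd⟩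
  right
  push Not at hsq
  obtain ⟨σ, hσ, hσ2⟩ := hsq
  have hle : zpowers σ ≤ (S : Subgroup G) := by rw [zpowers_le]; exact hσ
  have ho : orderOf σ ∣ 8 := by rw [← h8]; exact Subgroup.orderOf_dvd_natCard _ hσ
  have ho2 : ¬ orderOf σ ∣ 2 := by
    intro h
    apply hσ2
    rw [← pow_two]
    exact orderOf_dvd_iff_pow_eq_one.1 h
  have ho48 : orderOf σ = 4 ∨ orderOf σ = 8 := by
    have hle8 := Nat.le_of_dvd (by norm_num) ho
    have hpos := orderOf_pos σ
    generalize orderOf σ = o at *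
    interval_cases o <;> omega
  -- the cyclic case
  rcases ho48 with ho4 | ho8
  swap
  · exfalso
    have hS : zpowers σ = (S : Subgroup G) := by
      apply Subgroup.eq_of_le_of_card_ge hle
      rw [Nat.card_zpowers, ho8, h8]
    apply not_unique hG (S := S) (z := σ ^ 4) (pow_mem hσ 4)
    · rw [orderOf_pow, ho8]; norm_num
    · intro u hu huu
      rw [← hS, mem_zpowers_iff] at hu
      obtain ⟨k, rfl⟩ := hu
      rw [← zpow_add, ← orderOf_dvd_iff_zpow_eq_one, ho8] at huu
      obtain ⟨m, hm⟩ := huu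
      have hk : k = 4 * m := by push_cast at hm; omega
      have h41 : (σ ^ 4 : G) * σ ^ 4 = 1 := by
        rw [← pow_add, show 4 + 4 = orderOf σ by rw [ho8], pow_orderOf_eq_one]
      have hkk : σ ^ k = (σ ^ 4) ^ m := by
        rw [hk, zpow_mul]; norm_cast
      rw [hkk]
      rcases Int.even_or_odd' m with ⟨i, rfl | rfl⟩
      · left
        rw [zpow_mul, zpow_two, h41, one_zpow]
      · right
        rw [zpow_add_one, zpow_mul, zpow_two, h41, one_zpow, one_mul]
  -- an involution outside `⟨σ⟩`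
  set z := σ ^ 2 with hz
  have hz2 : orderOf z = 2 := by rw [hz, orderOf_pow, ho4]; norm_num
  have hzS : z ∈ (S : Subgroup G) := pow_mem hσ 2
  have hex : ∃ τ ∈ (S : Subgroup G), τ * τ = 1 ∧ τ ≠ 1 ∧ τ ≠ z := by
    by_contra hcon
    push Not at hcon
    apply not_unique hG hzS hz2
    intro u hu huu
    by_cases h1 : u = 1
    · exact Or.inl h1
    · exact Or.inr (hcon u hu huu h1)
  obtain ⟨τ, hτ, hττ, hτ1, hτz⟩ := hex
  have hinC : ∀ u ∈ zpowers σ, u * u = 1 → u = 1 ∨ u = z := by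
    intro u hu huu
    rw [mem_zpowers_iff] at hu
    obtain ⟨k, rfl⟩ := hu
    rw [← zpow_add, ← orderOf_dvd_iff_zpow_eq_one, ho4] at huu
    obtain ⟨m, hm⟩ := huu
    have hk : k = 2 * m := by push_cast at hm; omega
    have h41 : z * z = 1 := by rw [← pow_two, ← hz2, pow_orderOf_eq_one]
    have hkk : σ ^ k = z ^ m := by
      rw [hk, zpow_mul]; norm_cast
    rw [hkk]
    rcases Int.even_or_odd' m with ⟨i, rfl | rfl⟩
    · left
      rw [zpow_mul, zpow_two, h41, one_zpow]
    · right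
      rw [zpow_add_one, zpow_mul, zpow_two, h41, one_zpow, one_mul]
  have hτC : τ ∉ zpowers σ := by
    intro h
    rcases hinC τ h hττ with h1 | h1
    · exact hτ1 h1
    · exact hτz h1
  have hτi : τ⁻¹ = τ := inv_eq_of_mul_eq_one_left hττ
  -- `⟨σ⟩` has index two in `S`
  have hri : (zpowers σ).relIndex (S : Subgroup G) = 2 := by
    have h1 := card_mul_index ((zpowers σ).subgroupOf (S : Subgroup G))
    have h2 : Nat.card ((zpowers σ).subgroupOf (S : Subgroup G)) = 4 := by
      rw [Nat.card_congr (Subgroup.subgroupOfEquivOfLe hle).toEquiv, Nat.card_zpowers, ho4]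
    rw [h2, h8] at h1
    change ((zpowers σ).subgroupOf (S : Subgroup G)).index = 2
    omega
  have hmul : ∀ x ∈ (S : Subgroup G), x ∉ zpowers σ → x * τ ∈ zpowers σ := by
    intro x hx hxC
    have h1 : ((zpowers σ).subgroupOf (S : Subgroup G)).index = 2 := hri
    have h2 := Subgroup.mul_mem_iff_of_index_two h1 (a := ⟨x, hx⟩) (b := ⟨τ, hτ⟩)
    have h3 : (⟨x, hx⟩ : (S : Subgroup G)) ∉ (zpowers σ).subgroupOf (S : Subgroup G) := fun h =>
      hxC (mem_subgroupOf.1 h)
    have h4 : (⟨τ, hτ⟩ : (S : Subgroup G)) ∉ (zpowers σ).subgroupOf (S : Subgroup G) := fun h =>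
      hτC (mem_subgroupOf.1 h)
    exact mem_subgroupOf.1 (h2.2 (iff_of_false h3 h4))
  -- conjugation by `τ`
  have hconj : τ * σ * τ⁻¹ ∈ zpowers σ := by
    by_contra hcon
    have h1 := hmul _ (mul_mem (mul_mem hτ hσ) (inv_mem hτ)) hcon
    rw [inv_mul_cancel_right] at h1
    apply hτC
    have h2 := mul_mem h1 (inv_mem (mem_zpowers σ))
    rwa [mul_inv_cancel_right] at h2
  have hcase : τ * σ * τ⁻¹ = σ ∨ τ * σ * τ⁻¹ = σ⁻¹ := by
    rw [mem_zpowers_iff] at hconj
    obtain ⟨k, hk⟩ := hconj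
    have h2 : orderOf (σ ^ k) = 4 := by
      rw [hk, ← ho4]
      exact orderOf_injective (MulAut.conj τ).toMonoidHom (MulAut.conj τ).injective σ
    have hk4 : σ ^ k = σ ^ (k % 4) := by
      have := zpow_mod_orderOf σ k
      rw [ho4] at this
      exact_mod_cast this.symm
    have hr0 : 0 ≤ k % 4 := Int.emod_nonneg k (by norm_num)
    have hr4 : k % 4 < 4 := Int.emod_lt_of_pos k (by norm_num)
    have hz41 : σ ^ 4 = 1 := by rw [← ho4, pow_orderOf_eq_one]
    generalize hr : k % 4 = r at *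
    interval_cases r
    · rw [hk4, zpow_zero, orderOf_one] at h2; omega
    · left; rw [← hk, hk4, zpow_one]
    · rw [hk4] at h2
      have : σ ^ (2 : ℤ) = z := by rw [hz]; norm_cast
      rw [this, hz2] at h2; omega
    · right
      rw [← hk, hk4]
      have : σ ^ (3 : ℤ) = σ ^ 3 := by norm_cast
      rw [this, eq_inv_iff_mul_eq_one, ← pow_succ, hz41]
  rcases hcase with hc | hc
  · -- the abelian case
    exfalso
    have hcomm : τ * σ = σ * τ := by
      calc τ * σ = (τ * σ * τ⁻¹) * τ := by group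
        _ = σ * τ := by rw [hc]
    have hform : ∀ x ∈ (S : Subgroup G), ∃ k : ℤ, x = σ ^ k ∨ x = σ ^ k * τ := by
      intro x hx
      by_cases hxC : x ∈ zpowers σ
      · obtain ⟨k, hk⟩ := mem_zpowers_iff.1 hxC
        exact ⟨k, Or.inl hk.symm⟩
      · obtain ⟨k, hk⟩ := mem_zpowers_iff.1 (hmul x hx hxC)
        refine ⟨k, Or.inr ?_⟩
        rw [hk, mul_assoc, hττ, mul_one]
    have hct : Commute τ σ := hcomm
    have hsqs : ∀ x ∈ (S : Subgroup G), x * x = 1 ∨ x * x = z := by
      intro x hx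
      have key : ∀ k : ℤ, σ ^ k * σ ^ k = 1 ∨ σ ^ k * σ ^ k = z := by
        intro k
        apply hinC
        · exact mul_mem (zpow_mem (mem_zpowers σ) k) (zpow_mem (mem_zpowers σ) k)
        · rw [← zpow_add, ← zpow_add, ← orderOf_dvd_iff_zpow_eq_one, ho4]
          exact ⟨k, by push_cast; ring⟩
      obtain ⟨k, rfl | rfl⟩ := hform x hx
      · exact key k
      · have e : σ ^ k * τ * (σ ^ k * τ) = σ ^ k * σ ^ k := by
          have h1 := (hct.zpow_right k).eq
          calc σ ^ k * τ * (σ ^ k * τ) = σ ^ k * (τ * σ ^ k) * τ := by group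
            _ = σ ^ k * (σ ^ k * τ) * τ := by rw [h1]
            _ = σ ^ k * σ ^ k * (τ * τ) := by group
            _ = _ := by rw [hττ, mul_one]
        rw [e]; exact key k
    have hcz : Commute z σ := (Commute.refl σ).pow_left 2
    have hczt : Commute z τ := (hct.symm).pow_left 2
    have hSz : (S : Subgroup G) ≤ centralizer ({z} : Set G) := by
      intro x hx
      rw [mem_centralizer_singleton_iff]
      obtain ⟨k, rfl | rfl⟩ := hform x hx
      · exact (hcz.symm.zpow_left k).eq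
      · exact ((hcz.symm.zpow_left k).mul_left hczt.symm).eq
    have hab : IsMulCommutative (S : Subgroup G) := by
      refine ⟨⟨fun a b => Subtype.ext ?_⟩⟩
      obtain ⟨k, hk⟩ := hform a a.2
      obtain ⟨l, hl⟩ := hform b b.2
      have c1 : Commute (σ ^ k) (σ ^ l) := (Commute.refl σ).zpow_zpow k l
      have c2 : Commute τ (σ ^ l) := hct.zpow_right l
      have c3 : Commute (σ ^ k) τ := (hct.symm).zpow_left k
      change (a : G) * b = b * a
      rcases hk with hk | hk <;> rcases hl with hl | hl <;> rw [hk, hl]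
      · exact c1.eq
      · exact (c1.mul_right c3).eq
      · exact (c1.mul_left c2).eq
      · exact ((c1.mul_right c3).mul_left (c2.mul_right (Commute.refl τ))).eq
    apply not_isolated_of hG hz2 hSz
    intro g hg
    obtain ⟨n, hn, e⟩ := S.conj_eq_normalizer_conj_of_mem z g⁻¹ hzS
      (by rw [inv_inv]; exact hg)
    rw [inv_inv] at e
    rw [e]
    have hnσ : n⁻¹ * σ * n ∈ (S : Subgroup G) := by
      have := (mem_normalizer_iff.1 (inv_mem hn) σ).1 hσ
      rwa [inv_inv] at this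
    have e2 : n⁻¹ * z * n = (n⁻¹ * σ * n) * (n⁻¹ * σ * n) := by rw [hz, pow_two]; group
    rw [e2]
    rcases hsqs _ hnσ with h1 | h1
    · exfalso
      rw [← e2] at h1
      have h2 : z = 1 := by
        calc z = n * (n⁻¹ * z * n) * n⁻¹ := by group
          _ = 1 := by rw [h1]; group
      rw [h2, orderOf_one] at hz2
      omega
    · exact h1
  · exact ⟨σ, τ, h8, hσ, hτ, ho4, orderOf_eq_prime (by rw [pow_two]; exact hττ) hτ1, hτC, hc⟩

end Cfsg.Agent.OrdJ
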